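import Mathlib
import Cfsg.Agent.H06.W0

/-! Part Di of the S5568 cluster: the dihedral argument. -/

set_option autoImplicit false
open Cfsg BG Subgroup

namespace Cfsg.Agent.H19.WD

universe u

theorem di : H06.W.DiStmt.{u} := by
  intro G _ _ A F Y z a b YF FA AY A2 hI hW aA bA za zb aF bF hl y hy
  classical
  by_contra hn
  have ne : cj y A ≠ A := fun e => hn (cj_eq_self_iff.1 e)
  have fc : ∀ f ∈ F, ∀ g ∈ Y, g * f * g⁻¹ = f := fun f hf g hg => by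
    rw [← mem_cent.1 (YF hg) f hf, mul_inv_cancel_right]
  obtain ⟨r, hr⟩ : ∃ r, r = a * (y * b * y⁻¹) := ⟨_, rfl⟩
  have rY : r ∈ Y := hr ▸ mul_mem (AY aA) (mul_mem (mul_mem hy (AY bA)) (inv_mem hy))
  have a1 : a⁻¹ = a := inv_eq_of_mul_eq_one_right (A2 a aA)
  have b1 : b⁻¹ = b := inv_eq_of_mul_eq_one_right (A2 b bA)
  have eb : y * b * y⁻¹ = r⁻¹ * a := by rw [hr]; simp [b1, mul_assoc]
  have s : SemiconjBy a r⁻¹ r := by
    show a * r⁻¹ = r * a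
    rw [hr, mul_inv_rev, a1, ← mul_assoc]; simp [b1, mul_assoc]
  have sj : ∀ j : ℕ, a * (r ^ j)⁻¹ = r ^ j * a := fun j => by simpa using (s.pow_right j).eq
  have h1 : ∀ j : ℕ, r ^ j * a * (r ^ j)⁻¹ = r ^ (2 * j) * a := fun j => by
    rw [mul_assoc, sj, ← mul_assoc, ← pow_add, two_mul]
  have h2 : ∀ j : ℕ, r ^ (j + 1) * y * b * (r ^ (j + 1) * y)⁻¹ = r ^ (2 * j + 1) * a := fun j => by
    calc _ = r ^ (j + 1) * (y * b * y⁻¹) * (r ^ (j + 1))⁻¹ := by group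
      _ = r ^ j * (a * (r ^ (j + 1))⁻¹) := by rw [eb]; group
      _ = _ := by rw [sj]; group
  have cv : ∀ m : ℕ, ∃ w ∈ Y, ∃ e ∈ A, IsConj z e ∧ w * e * w⁻¹ = r ^ m * a := fun m => by
    obtain ⟨j, rfl | rfl⟩ := Nat.even_or_odd' m
    exacts [⟨_, pow_mem rY j, a, aA, za, h1 j⟩, ⟨_, mul_mem (pow_mem rY _) hy, b, bA, zb, h2 j⟩]
  have nm : ∀ c ∈ Y, ∀ e ∈ A, e ∉ F → ∀ f ∈ F, c * e * c⁻¹ = f * e → c ∈ N_(A) := fun c hc e he eF f hf k => by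
    by_contra n
    exact eF ((mul_mem_cancel_left hf).1 (hI c hc (fun q => n (cj_eq_self_iff.1 q))
      ⟨mul_mem (FA hf) he, k ▸ conj_mem_cj c he⟩))
  have ex : ∃ n : ℕ, 0 < n ∧ r ^ n ∈ F := ⟨_, orderOf_pos r, by simp⟩
  obtain ⟨n0, nF⟩ := Nat.find_spec ex
  have mn := fun m => Nat.find_min ex (m := m)
  generalize Nat.find ex = n at n0 nF mn
  obtain ⟨k, rfl | rfl⟩ := Nat.even_or_odd' n
  · obtain ⟨k, rfl⟩ : ∃ j, k = j + 1 := ⟨k - 1, by omega⟩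
    refine mn (k + 1) (by omega) ⟨by omega, hI y hy ne ⟨?_, ?_⟩⟩
    · have c := nm _ (pow_mem rY (k + 1)) a aA aF _ nF (h1 _)
      obtain ⟨w, hw, e, he, ze, q⟩ := cv (k + 1)
      exact (mul_mem_cancel_right aA).1 (hW w hw _ (q ▸ conj_mem_cj w he) (ze.trans (isConj_iff.2 ⟨w, q⟩))
        (mul_mem c (le_norm A aA)))
    · have cY : y⁻¹ * r ^ (k + 1) * y ∈ Y := mul_mem (mul_mem (inv_mem hy) (pow_mem rY _)) hy
      have eb' : b = y⁻¹ * (r⁻¹ * a) * y := by rw [← eb]; group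
      have c := nm _ cY b bA bF _ nF (by
        calc _ = y⁻¹ * (r ^ (k + 1) * y * b * (r ^ (k + 1) * y)⁻¹) * y := by group
          _ = y⁻¹ * r ^ (2 * (k + 1)) * y⁻¹⁻¹ * (y⁻¹ * (r⁻¹ * a) * y) := by rw [h2]; group
          _ = _ := by rw [fc _ nF _ (inv_mem hy), ← eb'])
      obtain ⟨w, hw, e, he, ze, q⟩ := cv k
      have q' : y⁻¹ * w * e * (y⁻¹ * w)⁻¹ = y⁻¹ * r ^ (k + 1) * y * b := by
        calc _ = y⁻¹ * (w * e * w⁻¹) * y := by group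
          _ = y⁻¹ * r ^ (k + 1) * y * (y⁻¹ * (r⁻¹ * a) * y) := by rw [q]; group
          _ = _ := by rw [← eb']
      exact mem_cj.2 ((mul_mem_cancel_right bA).1 (hW _ (mul_mem (inv_mem hy) hw) _ (q' ▸ conj_mem_cj _ he)
        (ze.trans (isConj_iff.2 ⟨_, q'⟩)) (mul_mem c (le_norm A bA))))
  · have uY : (r ^ (k + 1) * y)⁻¹ ∈ Y := inv_mem (mul_mem (pow_mem rY _) hy)
    refine hl _ uY ?_
    have q := h2 k
    have f := fc _ (inv_mem nF) _ uY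
    generalize r ^ (k + 1) * y = w at q f ⊢
    generalize r ^ (2 * k + 1) = t at q f nF
    have : w⁻¹ * a * w⁻¹⁻¹ * b = t⁻¹ := by
      calc _ = w⁻¹ * t⁻¹ * w⁻¹⁻¹ * (w⁻¹ * (t * a) * w * b) := by group
        _ = t⁻¹ * (b * b) := by rw [f, ← q]; group
        _ = _ := by rw [A2 b bA, mul_one]
    rw [this]; exact inv_mem nF

end Cfsg.Agent.H19.WD
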