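import Mathlib
import Cfsg.Agent.H19.Frob3
import Cfsg.Agent.H05.Burnside

/-!
Groups in which all non-identity elements of a Sylow `p`-subgroup `P` have the same centralizer (namespace H19).
* `Star P`, `Star.frob`, `Star.proj` (the projection `C(P) → P`), `Star.ind_inner` (TI formula).
* `Star.exists_twin` : a character not constant on `P^#` agrees with another one on the `p`-regular elements.
* `Star.norm_res_lt` : `‖χ_C‖² < [N : C] + 1` for small characters.
* `brauer_leonard`, `brauer_leonard_normal` : characters of degree less than `√(|P| - 1)`.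
-/

set_option linter.unusedSectionVars false

open H05 Cfsg Classical
open scoped ComplexConjugate

namespace H19

variable {p : ℕ} {G : Type*} [Group G] [Fintype G]

/-- The centralizer of a subgroup. -/
abbrev CC (P : Subgroup G) : Subgroup G := Subgroup.centralizer (P : Set G)

theorem mem_normalizer_CC {P : Subgroup G} (n : Subgroup.normalizer (P : Set G)) :
    (n : G) ∈ Subgroup.normalizer (CC P : Set G) :=
  Subgroup.mem_normalizer_fintype fun c hc y hy => by
    have := hc _ ((P.normalizerMonoidHom n⁻¹ ⟨y, hy⟩).2)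
    rw [coe_nmh] at this
    calc _ = n * (((n⁻¹ :) : G) * y * ((n⁻¹ :) : G)⁻¹ * c) * (n : G)⁻¹ := by simp [mul_assoc]
      _ = _ := by rw [this]; simp [mul_assoc]

/-- The action of the normalizer on the centralizer. -/
def cC {P : Subgroup G} (n : Subgroup.normalizer (P : Set G)) : CC P ≃* CC P :=
  (CC P).normalizerMonoidHom ⟨n, mem_normalizer_CC n⟩

theorem coe_cC {P : Subgroup G} (n : Subgroup.normalizer (P : Set G)) (c : CC P) :
    (cC n c : G) = n * c * (n : G)⁻¹ := rfl

/-- The multiplicity of a linear character of `P`. -/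
noncomputable def nP (P : Subgroup G) (χ : G → ℂ) (ψ : P →* ℂˣ) : ℕ :=
  ⌊(classInner (fun y : P => χ y) (hf ψ)).re⌋₊

theorem nP_eq (P : Subgroup G) {χ : G → ℂ} (hχ : IsCharacter G χ) (ψ : P →* ℂˣ) :
    (nP P χ ψ : ℂ) = classInner (fun y : P => χ y) (hf ψ) := by
  obtain ⟨n, hn⟩ := (hχ.comp P.subtype).exists_classInner_eq_nat (isIrr_hf ψ).isCharacter
  have hn' : classInner (fun y : P => χ y) (hf ψ) = n := hn
  rw [nP, hn']; simp

theorem uu_eq_nP (P : Subgroup G) (χ : IrrCharacter G) (ψ : P →* ℂˣ) : uu P χ ψ = nP P χ ψ - nP P χ 1 := by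
  have := uu_eq P χ ψ
  rw [classInner_sub_right, ← hf_one, ← nP_eq P χ.2.isCharacter, ← nP_eq P χ.2.isCharacter] at this
  exact_mod_cast this

theorem le_deg_of_const (P : Subgroup G) [IsMulCommutative P] {χ : G → ℂ} (hχ : IsCharacter G χ)
    (h : ∀ ψ ψ', ψ ≠ 1 → ψ' ≠ 1 → nP P χ ψ = nP P χ ψ') (hP : ¬ P ≤ charKer χ) : Nat.card P ≤ charDegree χ + 1 := by
  have h1 : ∀ y : P, χ y = ∑ ψ, nP P χ ψ * hf ψ y := fun y => by
    simp only [nP_eq P hχ]; exact fourier (fun y : P => χ y) y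
  obtain ⟨ψ, h2, h3⟩ : ∃ ψ, ψ ≠ 1 ∧ nP P χ ψ ≠ 0 := by
    by_contra! hc
    refine hP fun y hy => hχ.mem_charKer.2 ((h1 ⟨y, hy⟩).trans (Eq.trans ?_ (h1 1).symm))
    exact Finset.sum_congr rfl fun ψ _ => by by_cases e : ψ = 1 <;> simp [e, hc]
  have h4 := h1 1
  simp only [hf_apply_one, mul_one, OneMemClass.coe_one, ← hχ.charDegree_eq] at h4
  have h5 : charDegree χ = ∑ ψ, nP P χ ψ := by exact_mod_cast h4
  rw [← Finset.add_sum_erase _ _ (Finset.mem_univ 1), Finset.sum_congr rfl fun ψ' h' => h ψ' ψ (Finset.mem_erase.1 h').1 h2,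
    Finset.sum_const, Finset.card_erase_of_mem (Finset.mem_univ _), Finset.card_univ, card_dual, smul_eq_mul] at h5
  have := Nat.le_mul_of_pos_right (Nat.card P - 1) (Nat.pos_of_ne_zero h3)
  omega

theorem nP_of_rel {P : Subgroup G} {χ : G → ℂ} (hχ : IsClassFunction G χ) {ψ ψ' : P →* ℂˣ} (h : DRel P ψ ψ') :
    nP P χ ψ = nP P χ ψ' := by
  obtain ⟨n, rfl⟩ := dRel_iff.1 h
  rw [nP, nP, ← classInner_comp_mulEquiv _ (hf ψ') (P.normalizerMonoidHom n)]
  congr 3
  ext y
  exact (hχ _ _).symm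

variable [hp : Fact p.Prime] {M : Ideal AlgInt} {P : Sylow p G}

theorem Frob.lt_of_not_rel (F : Frob P) {ψ ψ' : (P : Subgroup G) →* ℂˣ} (h : ψ ≠ 1) (h' : ψ' ≠ 1)
    (hr : ¬ DRel _ ψ ψ') : frobIdx (P : Subgroup G) + 1 < Nat.card (P : Subgroup G) := by
  have := F.comm
  have h1 : (Finset.univ.filter fun ψ => DRel _ ψ ψ') ⊂ Finset.univ.erase 1 :=
    Finset.ssubset_iff_subset_ne.2 ⟨fun x hx => Finset.mem_erase.2
      ⟨((dRel_equivalence _).symm (Finset.mem_filter.1 hx).2).ne_one h', Finset.mem_univ _⟩,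
      fun e => hr (Finset.mem_filter.1 (e ▸ Finset.mem_erase.2 ⟨h, Finset.mem_univ _⟩ :
        ψ ∈ Finset.univ.filter fun ψ => DRel _ ψ ψ')).2⟩
  have h2 := Finset.card_lt_card h1
  rw [F.card_rel h', Finset.card_erase_of_mem (Finset.mem_univ _), Finset.card_univ, card_dual] at h2
  omega

theorem exists_conj_pPart_mem (P : Sylow p G) (g : G) : ∃ x, H21.pPart p (x * g * x⁻¹) ∈ (P : Subgroup G) := by
  obtain ⟨x, hx⟩ := H08.exists_conj_mem_sylow P (H21.isPGroup_zpowers (H21.orderOf_pPart p g))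
  exact ⟨x, by rw [H21.pPart_conj]; exact hx⟩

theorem FDesc.apply_sing {d δ : ℤ} {a : IrrCharacter G → ℤ} {ζ : ((P : Subgroup G) →* ℂˣ) → IrrCharacter G}
    (D : FDesc M P d δ a ζ) {χ : IrrCharacter G} (h : χ ∈ fX M ζ) {g : G} (hg : p ∣ orderOf g) :
    (χ : G → ℂ) g = a χ := by
  obtain ⟨x, hx⟩ := exists_conj_pPart_mem P g
  rw [← χ.2.isClassFunction g x]
  exact D.apply_X h (H21.isPPart_pPart p _) hx fun e => H21.pPart_eq_one_iff.1 e (by rwa [H08.orderOf_conj'])

/-- All non-identity elements of `P` have the same centralizer as `P`. -/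
def Star (P : Sylow p G) : Prop :=
  ∀ x ∈ (P : Subgroup G), x ≠ 1 → Subgroup.centralizer ({x} : Set G) = CC (P : Subgroup G)

namespace Star
variable (S : Star P)
include S

theorem le_CC : (P : Subgroup G) ≤ CC (P : Subgroup G) := fun x hx => by
  by_cases h : x = 1
  · exact h ▸ one_mem _
  · exact S x hx h ▸ H21.self_mem_centralizer x

theorem frob : Frob P :=
  ⟨⟨⟨fun x y => Subtype.ext (S.le_CC y.2 x x.2)⟩⟩, fun y hy h => by
    rw [S y hy h, inf_eq_left]; exact Subgroup.centralizer_le_normalizer _⟩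

omit S in
theorem mem_P {c : G} (hc : c ∈ CC (P : Subgroup G)) (h : ∃ k, orderOf c = p ^ k) : c ∈ (P : Subgroup G) := by
  have := P.3 (H08.isPGroup_sup_of_commute P.2 (H21.isPGroup_zpowers h) fun a ha b hb =>
    Subgroup.zpowers_le.2 hc hb a ha) le_sup_left
  exact this ▸ Subgroup.mem_sup_right (Subgroup.mem_zpowers c)

omit S in
theorem pPart_mem (c : CC (P : Subgroup G)) : H21.pPart p (c : G) ∈ (P : Subgroup G) :=
  mem_P (H21.pPart_mem p c.2) (H21.orderOf_pPart p _)

theorem hasNPC : HasNormalPComplement p (CC (P : Subgroup G)) :=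
  H03.hasNPC_of_sylow_le_center (P.subtype S.le_CC) fun x hx =>
    Subgroup.mem_center_iff.2 fun c => Subtype.ext (c.2 x hx).symm

/-- The projection `C(P) → P`. -/
noncomputable def proj : CC (P : Subgroup G) →* (P : Subgroup G) :=
  MonoidHom.mk' (fun c => ⟨H21.pPart p (c : G), pPart_mem c⟩) fun c c' => Subtype.ext (by
    have h1 : ¬ p ∣ orderOf (H21.pReg p c * H21.pReg p c') :=
      (H21.mem_core_of_hasNPC S.hasNPC).1 (mul_mem ((H21.mem_core_of_hasNPC S.hasNPC).2 (H21.not_dvd_orderOf_pReg p c))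
        ((H21.mem_core_of_hasNPC S.hasNPC).2 (H21.not_dvd_orderOf_pReg p c')))
    rw [← Subgroup.orderOf_coe, Subgroup.coe_mul, H21.coe_pReg, H21.coe_pReg] at h1
    have h2 := mul_mem (pPart_mem c) (pPart_mem c')
    have h3 : ((c * c' :) : G) = H21.pPart p (c : G) * H21.pPart p (c' : G) * (H21.pReg p (c : G) * H21.pReg p (c' : G)) := by
      rw [mul_assoc, ← mul_assoc (H21.pPart p (c' : G)), H21.pReg_mem p c.2 _ (pPart_mem c'), mul_assoc,
        H21.pPart_mul_pReg, ← mul_assoc, H21.pPart_mul_pReg, Subgroup.coe_mul]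
    change H21.pPart p ((c * c' :) : G) = _
    rw [h3]
    exact H21.pPart_mul_of_commute (H21.orderOf_pow_of_mem P.2 h2) h1
      (mul_mem (H21.pReg_mem p c.2) (H21.pReg_mem p c'.2) _ h2))

theorem proj_incl (y : (P : Subgroup G)) : S.proj (Subgroup.inclusion S.le_CC y) = y :=
  Subtype.ext (H21.pPart_of_pow (H21.orderOf_pow_of_mem P.2 y.2))

theorem proj_eq_one {c : CC (P : Subgroup G)} : S.proj c = 1 ↔ ¬ p ∣ orderOf (c : G) :=
  Subtype.ext_iff.trans H21.pPart_eq_one_iff

theorem mem_N {c x : G} (hc : c ∈ CC (P : Subgroup G)) (h : p ∣ orderOf c) (hx : x * c * x⁻¹ ∈ CC (P : Subgroup G)) :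
    x ∈ Subgroup.normalizer ((P : Subgroup G) : Set G) := by
  have h1 := pPart_mem ⟨_, hc⟩
  have h2 := pPart_mem ⟨_, hx⟩
  have h3 : H21.pPart p c ≠ 1 := fun e => H21.pPart_eq_one_iff.1 e h
  simp only [H21.pPart_conj] at h1 h2
  refine Subgroup.mem_normalizer_fintype fun y hy => mem_P ?_ (by
    rw [H08.orderOf_conj']; exact H21.orderOf_pow_of_mem P.2 hy)
  rw [← S _ h2 (by simpa using h3), Subgroup.mem_centralizer_singleton_iff]
  have := S.le_CC h1 y hy
  calc _ = x * (y * H21.pPart p c) * x⁻¹ := by group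
    _ = _ := by rw [this]; group

theorem ind_inner (α β : CC (P : Subgroup G) → ℂ) (hβ : ∀ c : CC (P : Subgroup G), ¬ p ∣ orderOf (c : G) → β c = 0) :
    Nat.card (CC (P : Subgroup G)) * classInner (indFun _ α) (indFun _ β) =
      ∑ n : Subgroup.normalizer ((P : Subgroup G) : Set G), classInner (fun c => α (cC n c)) β := by
  rw [H06.frobenius_reciprocity_right _ _ _ (H06.indFun_isClassFunction _ _), ← classInner_smul_left,
    ← classInner_sum_left, classInner_def, classInner_def]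
  congr 1
  refine Finset.sum_congr rfl fun c _ => ?_
  by_cases hc : p ∣ orderOf (c : G)
  swap
  · simp [hβ c hc]
  congr 1
  rw [Pi.smul_apply, H06.indFun_apply', smul_eq_mul, mul_inv_cancel_left₀ card_ne_zero_complex, Finset.sum_apply,
    ← Finset.sum_subset (Finset.subset_univ (Finset.univ.filter (· ∈ Subgroup.normalizer ((P : Subgroup G) : Set G))))
      fun x _ hx => H06.extendByZero_of_notMem _ _ fun h => hx (by simpa using S.mem_N c.2 hc h),
    Finset.sum_subtype _ (p := (· ∈ Subgroup.normalizer ((P : Subgroup G) : Set G))) (by simp)]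
  exact Finset.sum_congr rfl fun n _ => H06.extendByZero_coe _ α (cC n c)

theorem exists_over {φ : CC (P : Subgroup G) → ℂ} (hφ : IsIrrCharacter _ φ) :
    ∃ ψ : (P : Subgroup G) →* ℂˣ, ∀ y, φ (Subgroup.inclusion S.le_CC y) = φ 1 * hf ψ y := by
  have h0 := hφ.apply_one_ne_zero
  let f : (P : Subgroup G) →* ℂ :=
    { toFun := fun y => φ (Subgroup.inclusion S.le_CC y) / φ 1
      map_one' := by simp [h0]
      map_mul' := fun y z => by
        rw [map_mul, hφ.apply_mul_of_mem_center (Subgroup.mem_center_iff.2 fun c => Subtype.ext (c.2 y y.2).symm),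
          mul_div_assoc] }
  exact ⟨f.toHomUnits, fun y => by simp [hf, f, mul_div_cancel₀ _ h0]⟩

theorem mem_of_fix {φ : CC (P : Subgroup G) → ℂ} (hφ : IsIrrCharacter _ φ) {ψ : (P : Subgroup G) →* ℂˣ} (hψ : ψ ≠ 1)
    (h : ∀ y, φ (Subgroup.inclusion S.le_CC y) = φ 1 * hf ψ y) {n : Subgroup.normalizer ((P : Subgroup G) : Set G)}
    (hn : classInner (fun c => φ (cC n c)) φ ≠ 0) : (n : G) ∈ CC (P : Subgroup G) := by
  have h1 := (hφ.comp_mulEquiv (cC n)).eq_of_classInner_ne_zero hφ hn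
  refine S.frob.mem_of_cD_eq hψ (MonoidHom.ext fun y => Units.ext (mul_left_cancel₀ hφ.apply_one_ne_zero ?_))
  exact (h _).symm.trans ((congrFun h1 (Subgroup.inclusion S.le_CC y)).trans (h y))

theorem exists_twin {χ : IrrCharacter G} {ψ ψ' : (P : Subgroup G) →* ℂˣ} (hψ : ψ ≠ 1) (hψ' : ψ' ≠ 1)
    (h : nP (P : Subgroup G) χ ψ ≠ nP (P : Subgroup G) χ ψ') :
    ∃ χ' : IrrCharacter G, χ' ≠ χ ∧ ∀ g, ¬ p ∣ orderOf g → (χ' : G → ℂ) g = (χ : G → ℂ) g := by
  set ν : CC (P : Subgroup G) →* ℂˣ := (ψ' * ψ⁻¹).comp S.proj with hν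
  have hν1 : ∀ y, (ν (Subgroup.inclusion S.le_CC y) : ℂ) * hf ψ y = hf ψ' y := fun y => by
    simp [hν, S.proj_incl, hf]
  have hf1 : IsClassFunction (CC (P : Subgroup G)) fun c => (χ : G → ℂ) c - (χ : G → ℂ) c * conj (ν c : ℂ) :=
    fun a b => by simp [χ.2.isClassFunction _ _, mul_right_comm (ν b)]
  obtain ⟨φ, h1, h2⟩ : ∃ φ : IrrCharacter (CC (P : Subgroup G)),
      classInner (fun c : CC (P : Subgroup G) => (χ : G → ℂ) c - (χ : G → ℂ) c * conj (ν c : ℂ)) φ ≠ 0 ∧
      classInner (fun y => φ.1 (Subgroup.inclusion S.le_CC y)) (hf ψ) ≠ 0 := by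
    by_contra! hc
    apply h
    have e1 : classInner (fun y : (P : Subgroup G) => (χ : G → ℂ) y - (χ : G → ℂ) y *
        conj (ν (Subgroup.inclusion S.le_CC y) : ℂ)) (hf ψ) = 0 := by
      rw [show (fun y : (P : Subgroup G) => (χ : G → ℂ) y - (χ : G → ℂ) y * conj (ν (Subgroup.inclusion S.le_CC y) : ℂ)) =
        ∑ φ : IrrCharacter (CC (P : Subgroup G)), classInner (fun c : CC (P : Subgroup G) =>
          (χ : G → ℂ) c - (χ : G → ℂ) c * conj (ν c : ℂ)) φ • fun y => φ.1 (Subgroup.inclusion S.le_CC y) from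
        funext fun y => (hf1.apply_eq_sum (Subgroup.inclusion S.le_CC y)).trans (by simp), classInner_sum_left]
      refine Finset.sum_eq_zero fun φ _ => ?_
      rw [classInner_smul_left, mul_eq_zero]
      exact or_iff_not_imp_left.2 (hc φ)
    have e2 : (nP (P : Subgroup G) χ ψ : ℂ) - nP (P : Subgroup G) χ ψ' = 0 := by
      rw [← e1, nP_eq _ χ.2.isCharacter, nP_eq _ χ.2.isCharacter]
      simp only [classInner_def, ← mul_sub, ← Finset.sum_sub_distrib, ← hν1, map_mul, sub_mul, mul_assoc]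
    exact_mod_cast sub_eq_zero.1 e2
  obtain ⟨ψ₀, h3⟩ := S.exists_over φ.2
  obtain rfl : ψ₀ = ψ := by
    by_contra hne
    rw [show (fun y => φ.1 (Subgroup.inclusion S.le_CC y)) = φ.1 1 • hf ψ₀ from funext h3,
      classInner_smul_left, classInner_hf, if_neg hne, mul_zero] at h2
    exact h2 rfl
  have hφ' := φ.2.mul_monoidHom ν
  set φ' : CC (P : Subgroup G) → ℂ := fun c => φ.1 c * ν c with hφ''
  have h4 : ∀ y, φ' (Subgroup.inclusion S.le_CC y) = φ' 1 * hf ψ' y := fun y => by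
    simp only [hφ'', h3, ← hν1, map_one, Units.val_one]; ring
  have h5 : ∀ c : CC (P : Subgroup G), ¬ p ∣ orderOf (c : G) → (φ.1 - φ') c = 0 := fun c hc => by
    simp [hφ'', hν, S.proj_eq_one.2 hc]
  have hτ := H06.isGeneralizedCharacter_indFun _ (φ.2.isGeneralizedCharacter.sub hφ'.isGeneralizedCharacter)
  set τ := indFun _ (φ.1 - φ') with hτ'
  have h6 : classInner (χ : G → ℂ) τ ≠ 0 := by
    rw [H06.frobenius_reciprocity_right _ _ _ χ.2.isClassFunction]
    convert h1 using 1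
    simp only [classInner_def, hφ'', Pi.sub_apply, map_sub, map_mul]
    congr 1
    exact Finset.sum_congr rfl fun _ _ => by ring
  have h7 : ∀ g, ¬ p ∣ orderOf g → τ g = 0 := fun g hg => H06.indFun_eq_zero_of_forall _ _ _ fun x hx =>
    h5 _ (by have := H08.orderOf_conj' x⁻¹ g; rw [inv_inv] at this; rwa [this])
  have h8 := h7 1 (by simpa using hp.out.one_lt.ne')
  obtain ⟨k, hk⟩ := hτ.exists_classInner_self_eq_nat
  have h9 : k ≤ 2 := by
    have e1 := congrArg Complex.re (S.ind_inner (φ.1 - φ') _ h5)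
    rw [hk, Complex.re_sum] at e1
    have e2 : ∀ n : Subgroup.normalizer ((P : Subgroup G) : Set G),
        (classInner (fun c => (φ.1 - φ') (cC n c)) (φ.1 - φ')).re ≤
          if (n : G) ∈ CC (P : Subgroup G) then 2 else 0 := fun n => by
      have i1 := φ.2.comp_mulEquiv (cC n)
      have i2 := hφ'.comp_mulEquiv (cC n)
      rw [show (fun c => (φ.1 - φ') (cC n c)) = (fun c => φ.1 (cC n c)) - fun c => φ' (cC n c) from rfl,
        classInner_sub_left, classInner_sub_right, classInner_sub_right]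
      by_cases hn : (n : G) ∈ CC (P : Subgroup G)
      · rw [i1.classInner_eq φ.2, i1.classInner_eq hφ', i2.classInner_eq φ.2, i2.classInner_eq hφ', if_pos hn]
        split_ifs <;> norm_num
      · rw [not_not.1 (mt (S.mem_of_fix φ.2 hψ h3) hn), not_not.1 (mt (S.mem_of_fix hφ' hψ' h4) hn),
          i1.classInner_eq hφ', i2.classInner_eq φ.2, if_neg hn]
        split_ifs <;> norm_num
    have e3 := Finset.sum_le_sum fun n (_ : n ∈ Finset.univ) => e2 n
    rw [← e1, ← Finset.sum_filter, Finset.sum_const, ← Fintype.card_subtype, ← Nat.card_eq_fintype_card,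
      show Nat.card {n : Subgroup.normalizer ((P : Subgroup G) : Set G) // (n : G) ∈ CC (P : Subgroup G)} = _ from
        Nat.card_congr (Subgroup.subgroupOfEquivOfLe (Subgroup.centralizer_le_normalizer _)).toEquiv] at e3
    have e4 : (0 : ℝ) < Nat.card (CC (P : Subgroup G)) := by exact_mod_cast Nat.card_pos
    rw [← Nat.cast_mul, Complex.natCast_re, nsmul_eq_mul, Nat.cast_mul] at e3
    exact_mod_cast le_of_mul_le_mul_left e3 e4
  obtain rfl : k = 2 := by
    rcases (by omega : k = 0 ∨ k = 1 ∨ k = 2) with rfl | rfl | rfl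
    · exact absurd (by rw [(classInner_self_eq_zero _).1 (hk.trans Nat.cast_zero), classInner_zero_right]) h6
    · exact absurd h8 (hτ.apply_one_ne_zero_of_norm_one (hk.trans Nat.cast_one))
    · rfl
  obtain ⟨a, b, ha, hb, hab, e⟩ := H06.norm_two_of_apply_one hτ (hk.trans Nat.cast_two) h8
  have h10 : ∀ g, ¬ p ∣ orderOf g → a g = b g := fun g hg => sub_eq_zero.1 ((congrFun e g).symm.trans (h7 g hg))
  by_cases h11 : (χ : G → ℂ) = a
  · exact ⟨⟨b, hb⟩, fun e => hab (h11 ▸ (congrArg Subtype.val e).symm), fun g hg => h11 ▸ (h10 g hg).symm⟩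
  · have h12 : (χ : G → ℂ) = b := by
      by_contra h12
      rw [e, classInner_sub_right, χ.2.classInner_of_ne ha h11, χ.2.classInner_of_ne hb h12, sub_zero] at h6
      exact h6 rfl
    exact ⟨⟨a, ha⟩, fun e => h11 (congrArg Subtype.val e).symm, fun g hg => h12 ▸ h10 g hg⟩

theorem norm_res_lt {χ : IrrCharacter G} (h : charDegree (χ : G → ℂ) ^ 2 < Nat.card (P : Subgroup G)) :
    (classInner (fun c : CC (P : Subgroup G) => (χ : G → ℂ) c) fun c => (χ : G → ℂ) c).re <
      frobIdx (P : Subgroup G) + 1 := by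
  set α : CC (P : Subgroup G) → ℂ := fun c => if p ∣ orderOf (c : G) then (χ : G → ℂ) c else 0 with hα
  have h1 := S.ind_inner α α fun c hc => if_neg hc
  rw [Finset.sum_congr rfl (g := fun _ => classInner α α) fun n _ => by
      congr 1; ext c; simp only [hα, coe_cC, H08.orderOf_conj', χ.2.isClassFunction _ _],
    Finset.sum_const, Finset.card_univ, ← Nat.card_eq_fintype_card, card_normalizer, nsmul_eq_mul, Nat.cast_mul,
    mul_assoc, mul_right_inj' card_ne_zero_complex] at h1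
  have h2 : classInner (indFun _ α) (χ : G → ℂ) = classInner α α := by
    rw [H06.frobenius_reciprocity _ _ _ χ.2.isClassFunction, classInner_def, classInner_def]
    congr 1
    exact Finset.sum_congr rfl fun c _ => by simp only [hα]; split_ifs <;> simp
  have h3 := (H06.indFun_isClassFunction _ α).classInner_self_re_eq_sum
  have h4 := h3 ▸ Finset.single_le_sum (f := fun χ : IrrCharacter G => ‖classInner (indFun _ α) (χ : G → ℂ)‖ ^ 2)
    (fun _ _ => sq_nonneg _) (Finset.mem_univ χ)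
  obtain ⟨s, hs, hs0⟩ : ∃ s : ℝ, classInner α α = s ∧ 0 ≤ s :=
    ⟨(classInner α α).re, Complex.ext rfl (classInner_self_im _), classInner_self_re_nonneg _⟩
  rw [h2, h1, hs, Complex.norm_real, Real.norm_eq_abs, sq_abs, ← Complex.ofReal_natCast, ← Complex.ofReal_mul,
    Complex.ofReal_re] at h4
  have h5 : s ≤ frobIdx (P : Subgroup G) := by
    rcases hs0.eq_or_lt with rfl | hs0
    · positivity
    · nlinarith
  have h6 : Nat.card S.proj.ker * Nat.card (P : Subgroup G) = Nat.card (CC (P : Subgroup G)) := by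
    rw [← S.proj.ker.card_mul_index, Subgroup.index_ker,
      MonoidHom.range_eq_top.2 fun y => ⟨_, S.proj_incl y⟩, Subgroup.card_top]
  have h7 := congrArg Complex.re hs
  rw [classInner_self_re, Complex.ofReal_re] at h7
  have h8 : ∑ c : CC (P : Subgroup G), ‖(χ : G → ℂ) c‖ ^ 2 ≤ ∑ c, (‖α c‖ ^ 2 +
      if c ∈ S.proj.ker then (charDegree (χ : G → ℂ) : ℝ) ^ 2 else 0) := Finset.sum_le_sum fun c _ => by
    by_cases hc : p ∣ orderOf (c : G)
    · simp only [hα, hc, if_true, le_add_iff_nonneg_right]; positivity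
    · simp only [hα, hc, if_false, MonoidHom.mem_ker, S.proj_eq_one.2 hc, if_true, norm_zero]
      have := χ.2.isCharacter.norm_le c
      have := norm_nonneg ((χ : G → ℂ) c)
      nlinarith
  rw [Finset.sum_add_distrib, ← Finset.sum_filter, Finset.sum_const, ← Fintype.card_subtype,
    ← Nat.card_eq_fintype_card, nsmul_eq_mul] at h8
  have e4 : (0 : ℝ) < Nat.card (CC (P : Subgroup G)) := by exact_mod_cast Nat.card_pos
  have e5 : (Nat.card S.proj.ker : ℝ) * (charDegree (χ : G → ℂ) : ℝ) ^ 2 < Nat.card (CC (P : Subgroup G)) := by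
    rw [← h6]; exact_mod_cast Nat.mul_lt_mul_of_pos_left h Nat.card_pos
  rw [classInner_self_re, inv_mul_lt_iff₀ e4]
  rw [inv_mul_eq_iff_eq_mul₀ e4.ne'] at h7
  nlinarith

end Star

theorem deg_eq_one_of_charCenter {χ : G → ℂ} (hχ : IsIrrCharacter G χ) (h : charCenter χ = ⊤) : charDegree χ = 1 := by
  have h1 := hχ.sum_norm_sq
  rw [Finset.sum_congr rfl fun g _ => by rw [hχ.mem_charCenter.1 (h ▸ Subgroup.mem_top g)], Finset.sum_const,
    Finset.card_univ, ← Nat.card_eq_fintype_card, nsmul_eq_mul,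
    mul_eq_left₀ (by exact_mod_cast Nat.card_pos.ne')] at h1
  exact_mod_cast (pow_eq_one_iff_of_nonneg (by positivity) two_ne_zero).1 h1

theorem FDesc.idx_eq_one {d δ : ℤ} {a : IrrCharacter G → ℤ} {ζ : ((P : Subgroup G) →* ℂˣ) → IrrCharacter G}
    (D : FDesc M P d δ a ζ) (h : fX M ζ = {H21.irrOne G}) : frobIdx (P : Subgroup G) = 1 := by
  have h3 : (2 : ℤ) ≤ (fY ζ).card := by exact_mod_cast D.two_le_card_Y
  obtain ⟨η, hη⟩ := Finset.card_pos.1 (by omega : 0 < (fY ζ).card)
  have h1 := D.reg_one hη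
  have h2 := D.norm
  rw [h, Finset.sum_singleton, D.a_one] at h1 h2
  rw [charDegree_irrOne21] at h1
  have h4 := η.2.charDegree_pos
  have h5 : (fY ζ).card * d - δ = -1 := by
    have := Int.eq_one_or_neg_one_of_mul_eq_neg_one' (by linear_combination h1 :
      (((fY ζ).card : ℤ) * d - δ) * charDegree (η : G → ℂ) = -1)
    omega
  rcases D.sign with rfl | rfl
  · obtain rfl : d = 0 := (mul_eq_zero.1 (by omega : ((fY ζ).card : ℤ) * d = 0)).resolve_left (by omega)
    omega
  · obtain rfl : d = -1 := by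
      have : d < 0 := by nlinarith
      have : -2 < d := by nlinarith
      omega
    omega

theorem brauer_leonard (S : Star P) (hK : ∀ K : Subgroup G, K.Normal → (P : Subgroup G) ≤ K → K = ⊤)
    {χ : IrrCharacter G} (h1 : (χ : G → ℂ) ≠ 1) (h : charDegree (χ : G → ℂ) ^ 2 + 1 < Nat.card (P : Subgroup G)) :
    HasNormalPComplement p G ∧ charDegree (χ : G → ℂ) = 1 := by
  have F := S.frob
  have := F.comm
  have h2 : ∀ ξ : IrrCharacter G, (ξ : G → ℂ) ≠ 1 → charDegree (ξ : G → ℂ) ≤ charDegree (χ : G → ℂ) ^ 2 →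
      ∃ ψ ψ', ψ ≠ 1 ∧ ψ' ≠ 1 ∧ nP (P : Subgroup G) ξ ψ ≠ nP (P : Subgroup G) ξ ψ' := fun ξ h1 h2 => by
    by_contra! hc
    have := le_deg_of_const _ ξ.2.isCharacter hc fun e => h1 (ξ.2.charKer_eq_top_iff.1 (hK _ inferInstance e))
    omega
  obtain ⟨ψ, ψ', h3, h4, h5⟩ := h2 χ h1 (Nat.le_self_pow two_ne_zero _)
  obtain ⟨χ', h6, h7⟩ := S.exists_twin h3 h4 h5
  obtain ⟨M, hM⟩ := H21.exists_isPModular hp.out
  obtain ⟨d, δ, a, ζ, D⟩ := F.exists_desc hM (F.lt_of_not_rel h3 h4 fun e => h5 (nP_of_rel χ.2.isClassFunction e))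
  have hd : charDegree (χ' : G → ℂ) = charDegree (χ : G → ℂ) := by
    rw [charDegree, h7 1 (by simpa using hp.out.one_lt.ne'), charDegree]
  have h8 : fX M ζ = {H21.irrOne G} := Finset.eq_singleton_iff_unique_mem.2 ⟨D.one_mem_X, fun ξ hξ => by
    by_contra hne
    have e1 : classInner (fun g => (χ : G → ℂ) g * conj ((χ : G → ℂ) g)) ξ -
        classInner (fun g => (χ' : G → ℂ) g * conj ((χ : G → ℂ) g)) ξ = a ξ := by
      have e2 : classInner (χ : G → ℂ) χ - classInner (χ' : G → ℂ) χ = 1 := by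
        rw [classInner_irr, classInner_irr, if_pos rfl, if_neg h6, sub_zero]
      rw [← mul_one (a ξ : ℂ), ← e2]
      simp only [classInner_def, ← mul_sub, ← Finset.sum_sub_distrib]
      rw [mul_left_comm]
      congr 1
      rw [Finset.mul_sum]
      refine Finset.sum_congr rfl fun g _ => ?_
      by_cases hg : p ∣ orderOf g
      · rw [D.apply_sing hξ hg, map_intCast]; ring
      · rw [h7 g hg]; ring
    have e3 : ∀ θ : IrrCharacter G, charDegree (θ : G → ℂ) = charDegree (χ : G → ℂ) →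
        classInner (fun g => (θ : G → ℂ) g * conj ((χ : G → ℂ) g)) ξ = 0 := fun θ hθ => by
      by_contra e
      have e4 := (θ.2.isCharacter.mul χ.2.isCharacter.conj).charDegree_le_of_constituent ξ.2 e
      rw [charDegree_eq_of_apply_one (χ := (θ : G → ℂ) * _) (n := charDegree (χ : G → ℂ) ^ 2) (by
        simp [← θ.2.charDegree_eq, ← χ.2.charDegree_eq, hθ, sq])] at e4
      obtain ⟨ψ, ψ', h3, h4, h5⟩ := h2 ξ (fun e => hne (Subtype.ext e)) e4
      have e5 := (D.u_X hξ h3).trans (D.u_X hξ h4).symm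
      rw [uu_eq_nP, uu_eq_nP] at e5
      omega
    rw [e3 χ rfl, e3 χ' hd, sub_zero] at e1
    exact D.a_ne_zero hξ (by exact_mod_cast e1.symm)⟩
  have h9 := D.idx_eq_one h8
  refine ⟨H03.hasNPC_of_normalizer_le_centralizer P (Subgroup.relIndex_eq_one.1 h9), deg_eq_one_of_charCenter χ.2
    (hK _ inferInstance fun y hy => χ.2.mem_charCenter.2 ?_)⟩
  have h10 := S.norm_res_lt (χ := χ) (by omega)
  have h11 : IsCharacter (CC (P : Subgroup G)) fun c => (χ : G → ℂ) c := χ.2.isCharacter.comp (CC (P : Subgroup G)).subtype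
  obtain ⟨k, hk⟩ := h11.exists_classInner_eq_nat h11
  rw [hk, h9, Complex.natCast_re] at h10
  have h12 : k < 2 := by exact_mod_cast h10
  obtain rfl : k = 1 := by
    by_contra hc
    exact χ.2.apply_one_ne_zero (congrFun ((classInner_self_eq_zero _).1 (hk.trans (by simp; omega))) 1)
  exact (h11.isIrr_of_norm_one (hk.trans Nat.cast_one)).norm_eq_of_mem_center (x := ⟨y, S.le_CC hy⟩)
    (Subgroup.mem_center_iff.2 fun c => Subtype.ext (c.2 y hy).symm)

universe u in
theorem brauer_leonard_normal (n : ℕ) : ∀ (G : Type u) [Group G] [Finite G] (P : Sylow p G), Nat.card G = n →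
    Star P → ∀ χ : G → ℂ, IsCharacter G χ → charKer χ = ⊥ → charDegree χ ^ 2 + 1 < Nat.card (P : Subgroup G) →
    (P : Subgroup G).Normal := by
  induction n using Nat.strong_induction_on with
  | _ n ih =>
  intro G _ _ P hn S χ hχ hker h
  have := Fintype.ofFinite G
  by_cases hK : ∀ K : Subgroup G, K.Normal → (P : Subgroup G) ≤ K → K = ⊤
  · have h1 : ∀ g h : G, g * h = h * g := fun g g' => by
      rw [← mul_inv_eq_one, ← Subgroup.mem_bot, ← hker, hχ.mem_charKer, hχ.isClassFunction.apply_eq_sum,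
        hχ.isClassFunction.apply_eq_sum 1]
      refine Finset.sum_congr rfl fun ξ _ => ?_
      by_cases e : classInner χ ξ = 0
      · simp [e]
      by_cases e1 : (ξ : G → ℂ) = 1
      · simp [e1]
      have e2 := (brauer_leonard S hK e1 (by
        have := Nat.pow_le_pow_left (hχ.charDegree_le_of_constituent ξ.2 e) 2; omega)).2
      obtain ⟨φ, hφ⟩ := ξ.2.isCharacter.exists_monoidHom (by rw [← ξ.2.charDegree_eq, e2, Nat.cast_one])
      simp [hφ, mul_comm (φ g)]
    exact ⟨fun y hy g => by rwa [h1 g, mul_inv_cancel_right]⟩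
  · push Not at hK
    obtain ⟨K, hK, hle, hne⟩ := hK
    have h1 := ih _ (hn ▸ (not_le.1 (mt K.eq_top_of_le_card hne))) K (P.subtype hle) rfl (fun x hx hx1 => by
        have e := S x hx fun e => hx1 (Subtype.ext e)
        ext c
        rw [Subgroup.mem_centralizer_singleton_iff, Subtype.ext_iff, Subgroup.coe_mul, Subgroup.coe_mul,
          ← Subgroup.mem_centralizer_singleton_iff, e]
        exact ⟨fun h y hy => Subtype.ext (h y hy), fun h y hy => congrArg Subtype.val (h ⟨y, hle hy⟩ hy)⟩)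
      _ (hχ.comp K.subtype) (eq_bot_iff.2 fun x hx => Subtype.ext (Subgroup.mem_bot.1 (hker ▸ hχ.mem_charKer.2
        ((hχ.comp K.subtype).mem_charKer.1 hx))))
      (by rwa [← Nat.card_congr (Subgroup.subgroupOfEquivOfLe hle).toEquiv] at h)
    have h2 := Sylow.characteristic_of_normal _ h1
    have h3 := ConjAct.normal_of_characteristic_of_normal (H := K) (K := (P.subtype hle : Subgroup K))
    rwa [Sylow.coe_subtype, Subgroup.subgroupOf_map_subtype, inf_eq_left.2 hle] at h3

end H19
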