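import Mathlib
import Cfsg.Agent.H19.Sieve
import Cfsg.Agent.H19.Recog
import Cfsg.Agent.H02.PPrimeCore

/-!
Groups of order 12096 without elements of order 9, 14, 21: the simple subgroup of index two (namespace H19).
* `G2H G`, `G2H.cent7`, `G2H.normal_bot`, `G2H.exists_simple`
-/

set_option linter.unusedSectionVars false

open Subgroup Cfsg

namespace H19

/-- Order 12096 and no elements of order 9, 14, 21. -/
structure G2H (G : Type*) [Group G] : Prop where
  card : Nat.card G = 12096
  ne9 : ∀ g : G, orderOf g ≠ 9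
  ne14 : ∀ g : G, orderOf g ≠ 14
  ne21 : ∀ g : G, orderOf g ≠ 21

theorem mem_of_coprime_index {G : Type*} [Group G] {L : Subgroup G} [L.Normal] {y : G} (h : (orderOf y).Coprime L.index) :
    y ∈ L := by
  rw [← QuotientGroup.eq_one_iff, ← orderOf_eq_one_iff]
  exact Nat.eq_one_of_dvd_coprimes h (orderOf_map_dvd (QuotientGroup.mk' L) y) (orderOf_dvd_natCard _)

namespace G2H

variable {G : Type*} [Group G] [Finite G] (h : G2H G)
include h

theorem cent7 {x : G} (hx : orderOf x = 7) : Nat.card (centralizer ({x} : Set G)) = 7 := by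
  have key : ∀ q : ℕ, q.Prime → q ≠ 7 → (∀ g : G, orderOf g ≠ 7 * q) → ¬ q ∣ Nat.card (centralizer ({x} : Set G)) :=
    fun q hq h7 h1 h2 => by
      have := Fact.mk hq
      obtain ⟨y, hy⟩ := exists_prime_orderOf_dvd_card' q h2
      rw [← orderOf_coe] at hy
      refine h1 (x * y) ?_
      rw [(show Commute x y from (mem_centralizer_singleton_iff.1 y.2).symm).orderOf_mul_eq_mul_orderOf_of_coprime
        (by rw [hx, hy]; exact (Nat.coprime_primes (by norm_num) hq).2 h7.symm), hx, hy]
  have h2 := key 2 Nat.prime_two (by norm_num) h.ne14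
  have h3 := key 3 Nat.prime_three (by norm_num) h.ne21
  have h4 : Nat.card (centralizer ({x} : Set G)) ∣ 7 * 3 ^ 3 * 2 ^ 6 := by
    rw [show 7 * 3 ^ 3 * 2 ^ 6 = 12096 by norm_num, ← h.card]; exact card_subgroup_dvd_card _
  exact Nat.dvd_antisymm (((Nat.prime_three.coprime_iff_not_dvd.2 h3).symm.pow_right 3).dvd_of_dvd_mul_right
    (((Nat.prime_two.coprime_iff_not_dvd.2 h2).symm.pow_right 6).dvd_of_dvd_mul_right h4))
    (hx ▸ orderOf_dvd_natCard _ (mem_centralizer_singleton_iff.2 rfl))

theorem exists7 [Fact (Nat.Prime 7)] : ∃ (P : Sylow 7 G) (x : G), zpowers x = P ∧ orderOf x = 7 ∧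
    Nat.card (normalizer ((P : Subgroup G) : Set G)) = 42 := by
  obtain ⟨y, hy⟩ := exists_prime_orderOf_dvd_card' (G := G) 7 (by rw [h.card]; norm_num)
  obtain ⟨P, e, h1, h2, h3, h4, h5⟩ := card_normalizer_of_selfC hy (h.cent7 hy)
  obtain ⟨x, hx, hx1⟩ := (P : Subgroup G).nontrivial_iff_exists_ne_one.1
    (Finite.one_lt_card_iff_nontrivial.1 (by rw [h1]; norm_num))
  refine ⟨P, x, zpowers_eq_sylow h1 hx hx1, orderOf_eq_of_mem_sylow h1 hx hx1, ?_⟩
  rw [h.card] at h4
  have := Nat.le_of_dvd (by norm_num) h2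
  change Nat.card (normalizer ((P : Subgroup G) : Set G)) = _ at h3
  interval_cases e <;> omega

theorem card_normal {M : Subgroup G} [hM : M.Normal] (h7 : ¬ 7 ∣ Nat.card M) : Nat.card M = 1 ∨ Nat.card M = 8 := by
  have := Fact.mk (by norm_num : Nat.Prime 7)
  obtain ⟨P, x, h1, hx, h2⟩ := h.exists7
  have h3 : ¬ 3 ∣ Nat.card M := fun e => by
    have := dvd_card_centralizer_of_normal hx h7 Nat.prime_three e fun a ha => by
      rw [h.card] at ha
      rcases a with _ | _ | _ | a
      · norm_num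
      · norm_num
      · norm_num
      · exact absurd ((pow_dvd_pow 3 (by omega : 4 ≤ a + 1 + 1 + 1 + 1)).trans ha) (by norm_num)
    rw [h.cent7 hx] at this
    omega
  have h4 : M ⊓ centralizer ({x} : Set G) = ⊥ := card_eq_one.1 (((Nat.dvd_prime (by norm_num)).1
    (h.cent7 hx ▸ card_dvd_of_le inf_le_right)).resolve_right fun e => h7 (e.symm.dvd.trans (card_dvd_of_le inf_le_left)))
  have h5 := card_inf_centralizer_modEq hx (Q := M) (by rw [normalizer_eq_top]; trivial)
  rw [h4, card_bot] at h5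
  have h6 : M ⊓ normalizer ((P : Subgroup G) : Set G) = ⊥ := eq_bot_iff.2 fun g hg => h4.le ⟨hg.1, by
    have e1 : g * x * g⁻¹ * x⁻¹ ∈ M ⊓ centralizer ({x} : Set G) := ⟨by
      rw [mul_assoc, mul_assoc, ← mul_assoc x]; exact mul_mem hg.1 (hM.conj_mem _ (inv_mem hg.1) x), by
      refine zpowers_le.2 (mem_centralizer_singleton_iff.2 rfl) (mul_mem ?_ (inv_mem (mem_zpowers x)))
      rw [h1]; exact (mem_normalizer_iff.1 hg.2 x).1 (h1 ▸ mem_zpowers x)⟩
    rw [h4, mem_bot, mul_inv_eq_one, mul_inv_eq_iff_eq_mul] at e1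
    exact mem_centralizer_singleton_iff.2 e1⟩
  have h8 := relIndex_dvd_index_of_normal M (normalizer ((P : Subgroup G) : Set G))
  rw [← inf_relIndex_right, h6, relIndex_bot_left, h2] at h8
  obtain ⟨k, hk⟩ := h8
  have h9 := M.card_mul_index
  rw [hk, h.card] at h9
  have h10 : Nat.card M ∣ 2 ^ 5 := ((Nat.prime_three.coprime_iff_not_dvd.2 h3).symm.pow_right 2).dvd_of_dvd_mul_right
    ⟨k, by linarith⟩
  obtain ⟨i, h11, h12⟩ := (Nat.dvd_prime_pow Nat.prime_two).1 h10
  rw [h12] at h5 ⊢
  interval_cases i <;> simp [Nat.ModEq] at h5 ⊢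

theorem normal_bot {M : Subgroup G} [hM : M.Normal] (h7 : ¬ 7 ∣ Nat.card M) : M = ⊥ := by
  have := Fact.mk (by norm_num : Nat.Prime 7)
  refine card_eq_one.1 ((h.card_normal h7).resolve_right fun h1 => ?_)
  have h2 : ¬ 7 ∣ Nat.card (centralizer (M : Set G)) := fun e => by
    obtain ⟨y, hy⟩ := exists_prime_orderOf_dvd_card' 7 e
    have := card_dvd_of_le (show M ≤ centralizer {(y : G)} from fun m hm =>
      mem_centralizer_singleton_iff.2 (mem_centralizer_iff.1 y.2 m hm))
    rw [h.cent7 ((orderOf_coe y).trans hy), h1] at this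
    omega
  have h3 := (relIndex_centralizer_normalizer_dvd M).trans (card_mulAut_dvd_factorial M)
  rw [normalizer_eq_top, relIndex_top_right, h1] at h3
  have h4 := (centralizer (M : Set G)).card_mul_index
  rw [h.card] at h4
  have h5 : (8 - 1).factorial = 5040 := by decide
  rw [h5] at h3
  rcases h.card_normal h2 with e | e <;> rw [e] at h4
  · rw [show (centralizer (M : Set G)).index = 12096 by omega] at h3; omega
  · rw [show (centralizer (M : Set G)).index = 1512 by omega] at h3; omega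

theorem exists_simple : ∃ S : Subgroup G, S.Normal ∧ IsSimpleGroup S ∧ Nat.card S = 6048 := by
  have := Fact.mk (by norm_num : Nat.Prime 7)
  have : Nontrivial G := Finite.one_lt_card_iff_nontrivial.1 (by rw [h.card]; norm_num)
  obtain ⟨S, hS, h1, h2⟩ := H02.exists_minimal_normal (G := G)
  obtain ⟨P, x, h3, hx, h4⟩ := h.exists7
  have key : ∀ {X : Type _} [Group X] [Finite X] (L : Subgroup X) [L.Normal], ¬ 49 ∣ Nat.card X → 7 ∣ Nat.card L →
      ∀ y : X, orderOf y = 7 → y ∈ L := fun L _ e1 ⟨a, e2⟩ y hy => mem_of_coprime_index (by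
    rw [hy, Nat.Prime.coprime_iff_not_dvd (by norm_num)]
    rintro ⟨b, e3⟩
    exact e1 ⟨a * b, by rw [← L.card_mul_index, e2, e3]; ring⟩)
  have h5 : ¬ 49 ∣ Nat.card G := by rw [h.card]; norm_num
  have h6 := key S h5 (by_contra fun e => h1 (h.normal_bot e))
  have : Nontrivial S := (nontrivial_iff_ne_bot S).2 h1
  have h7 : IsSimpleGroup S := ⟨fun L hL => by
    by_cases e : 7 ∣ Nat.card L
    · refine Or.inr (eq_top_iff.2 fun s _ => ?_)
      have e1 : normalClosure {x} = S := (h2 _ inferInstance (normalClosure_le_normal (by simpa using h6 x hx))).resolve_left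
        fun e' => by
          have : x = 1 := by simpa [e'] using subset_normalClosure (s := {x}) rfl
          simp [this] at hx
      have e2 : normalClosure {x} ≤ L.map S.subtype := (closure_le _).2 fun y hy => by
        obtain ⟨_, rfl, hy'⟩ := Group.mem_conjugatesOfSet_iff.1 hy
        have e3 : orderOf y = 7 := by
          obtain ⟨c, rfl⟩ := isConj_iff.1 hy'
          exact ((MulAut.conj c).orderOf_eq _).trans hx
        exact ⟨⟨y, h6 y e3⟩, key L (fun e' => h5 (e'.trans S.card_subgroup_dvd_card)) e _ ((orderOf_mk _ _).trans e3), rfl⟩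
      obtain ⟨t, e4, e5⟩ := e2 (e1.ge s.2)
      exact Subtype.ext e5 ▸ e4
    · have e1 : (pPrimeCore 7 S).map S.subtype = ⊥ := h.normal_bot (by
        rw [card_subtype]; exact H02.not_dvd_card_pPrimeCore (by norm_num))
      rw [map_eq_bot_iff_of_injective _ S.subtype_injective] at e1
      exact Or.inl (eq_bot_iff.2 (e1 ▸ H02.le_pPrimeCore ((Nat.Prime.coprime_iff_not_dvd (by norm_num)).2 e).symm))⟩
  have h8 : (P : Subgroup G) ≤ S := h3 ▸ zpowers_le.2 (h6 x hx)
  have h9 : S.relIndex (normalizer ((P : Subgroup G) : Set G)) = S.index := by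
    rw [← relIndex_sup_right]
    exact (congrArg S.relIndex (P.normalizer_sup_eq_top' h8)).trans S.relIndex_top_right
  have h10 := H01.card_mul_relIndex (inf_le_right : S ⊓ normalizer ((P : Subgroup G) : Set G) ≤ _)
  obtain ⟨k, hk⟩ : 7 ∣ Nat.card (S ⊓ normalizer ((P : Subgroup G) : Set G) :) :=
    hx.symm.dvd.trans (Subgroup.orderOf_dvd_natCard _ (mem_inf.2 ⟨h6 x hx, le_normalizer (h3.le (mem_zpowers x))⟩))
  rw [inf_relIndex_right, h9, h4, hk] at h10
  have h11 := S.card_mul_index
  rw [h.card] at h11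
  have h12 : S.index ∣ 6 := ⟨k, by linarith⟩
  have h13 := Nat.le_of_dvd (by norm_num) h12
  have h14 : ∀ n, Nat.card S = n → ¬ n.Prime → n ≤ 110 ^ 2 → Sv.kill 110 Sv.ps n = false := fun n e1 e2 e3 =>
    e1 ▸ not_kill (not_comm_of_simple_card (e1 ▸ e2)) Sv.ps_prime (e1 ▸ e3)
  refine ⟨S, hS, h7, ?_⟩
  generalize S.index = i at *
  interval_cases i
  · omega
  · exact absurd (h14 12096 (by omega) (by norm_num) (by norm_num)) (by decide +kernel)
  · omega
  · exact absurd (h14 4032 (by omega) (by norm_num) (by norm_num)) (by decide +kernel)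
  · omega
  · omega
  · exact absurd (h14 2016 (by omega) (by norm_num) (by norm_num)) (by decide +kernel)

end G2H

end H19
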