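import Mathlib
import Cfsg.Agent.H19.PBx
import Cfsg.Agent.H02.FPF

/-!
Simple groups of order 6048 without elements of order 9: the Sylow 3-subgroups (namespace H19).
* `pair_nat` (class multiplication), `U3T G χ`, `exists_u3T`, `U3T.ti`, `U3T.not_comm`
-/

set_option linter.unusedSectionVars false

open H05 Cfsg Classical Subgroup
open scoped ComplexConjugate

namespace H19

variable {G : Type*} [Group G] [Finite G]

theorem pair_nat (t t' y : G) : ∃ m : ℕ, (Nat.card G : ℂ) ^ 2 * ∑ χ : IrrCharacter G,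
    conj ((χ : G → ℂ) y) * ((χ : G → ℂ) t * (χ : G → ℂ) t' / (χ : G → ℂ) 1) = m := by
  have := Fintype.ofFinite G
  refine ⟨∑ b : G, ∑ a : G, if IsConj (a * t * a⁻¹ * (b * t' * b⁻¹)) y then
    Nat.card (centralizer ({a * t * a⁻¹ * (b * t' * b⁻¹)} : Set G)) else 0, ?_⟩
  rw [Finset.mul_sum, Finset.sum_congr rfl (g := fun χ : IrrCharacter G => ∑ b : G, ∑ a : G,
    (χ : G → ℂ) (a * t * a⁻¹ * (b * t' * b⁻¹)) * conj ((χ : G → ℂ) y)) fun χ _ => by
      rw [mul_left_comm, ← H08.pairSum_irr χ.2, H08.pairSum, mul_comm]; simp only [Finset.sum_mul],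
    Finset.sum_comm, Nat.cast_sum]
  refine Finset.sum_congr rfl fun b _ => ?_
  rw [Finset.sum_comm, Nat.cast_sum]
  exact Finset.sum_congr rfl fun a _ => by rw [sum_irr_mul_conj]; split_ifs <;> simp

variable (G) in
/-- The character of degree six. -/
structure U3T (χ : IrrCharacter G) : Prop where
  card : Nat.card G = 6048
  ne9 : ∀ g : G, orderOf g ≠ 9
  one : (χ : G → ℂ) 1 = 6
  val : ∀ z : G, orderOf z = 3 → ((χ : G → ℂ) z = 0 ∧ Nat.card (centralizer ({z} : Set G)) ∣ 27) ∨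
    ((χ : G → ℂ) z = -3 ∧ (Nat.card (centralizer ({z} : Set G)) = 54 ∨ Nat.card (centralizer ({z} : Set G)) = 108))

theorem exists_u3T [IsSimpleGroup G] (hn : Nat.card G = 6048) (h9 : ∀ g : G, orderOf g ≠ 9) : ∃ χ, U3T G χ := by
  have hG := not_comm_of_simple_card (G := G) (by rw [hn]; norm_num)
  have p7 : Nat.Prime 7 := by norm_num
  have := Fact.mk p7
  obtain ⟨σ, h1, X, Y, A, h2⟩ := sieve_pb hG (B := 78) p7 hn (by norm_num) (by norm_num) (by norm_num)
    (allow := fun _ _ => true) (qs := [2, 3]) (by decide) (fun _ _ _ _ _ _ _ => rfl) (sols := [(288, 3, 32, [-6, -27])])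
    (by decide +kernel)
  obtain rfl := List.mem_singleton.1 h1
  dsimp only at A h2
  obtain ⟨⟨χ, a⟩, ⟨η, b⟩, rfl⟩ := List.length_eq_two.1 (show X.length = 2 by simpa using congrArg List.length h2)
  obtain ⟨rfl, rfl⟩ : a = -6 ∧ b = -27 := by simpa using h2
  have h3 : Nat.card G = 7 * 3 * 288 := hn
  have d1 : (χ : G → ℂ) 1 = 6 := by rw [← χ.2.charDegree_eq, A.degX (χ, -6) (by simp)]; simp
  have d2 : (η : G → ℂ) 1 = 27 := by rw [← η.2.charDegree_eq, A.degX (η, -27) (by simp)]; simp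
  refine ⟨χ, hn, h9, d1, fun z hz => ?_⟩
  have h4 : z ≠ 1 := by rintro rfl; simp at hz
  have h5 : ¬ 7 ∣ orderOf z := by rw [hz]; norm_num
  obtain ⟨o, h6, h7, h8, h10⟩ := A.vals p7 hG h2 h4 h5 (fun w hw => exists_int_of_unique (A.eq_of_deg h3 hw
      (by simp only [List.mem_cons, List.not_mem_nil, or_false] at hw; rcases hw with rfl | rfl <;> norm_num)
      (by simp only [List.mem_cons, List.not_mem_nil, or_false] at hw; rcases hw with rfl | rfl <;> simp)) z)
    (m := 3) (fun ψ v hv => dvd_deg_sub_of_pow Nat.prime_three (k := 1) (by rw [pow_one, ← hz, pow_orderOf_eq_one]) hv)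
    (quad := false) (by simp) hn (A.cent_dvd p7 h3 h4 h5) (by norm_num)
    (hz ▸ orderOf_dvd_natCard _ (mem_centralizer_singleton_iff.2 rfl) : 3 ∣ _)
    (out := [(3, -1, [0, 0]), (9, -1, [0, 0]), (18, 2, [3, 0]), (27, -1, [0, 0]), (27, 2, [3, 0]), (54, -4, [-3, 0]),
      (54, 2, [3, 0]), (108, -4, [-3, 0])]) (by decide +kernel)
  have key : o.2 = (2, [3, 0]) → False := fun e => by
    rw [e] at h8 h10
    simp only [List.map_cons, List.map_nil, List.cons.injEq, and_true, Int.cast_ofNat, Int.cast_zero] at h8 h10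
    obtain ⟨x, hx⟩ := exists_prime_orderOf_dvd_card' (G := G) 7 (by rw [hn]; norm_num)
    obtain ⟨m, hm⟩ := pair_nat z z x
    have e1 := congrArg conj (A.valY x hx.symm.dvd)
    rw [map_list_sum, List.map_map, map_intCast] at e1
    rw [A.sum_eq p7 h3 fun ψ h => by rw [A.val0 ψ h x hx.symm.dvd, map_zero, zero_mul],
      List.map_congr_left (l := Y) (g := fun ψ => conj ((ψ : G → ℂ) x) * (1 / 8)) fun ψ h => by
        rw [h8 ψ h, ← ψ.2.charDegree_eq, A.degY ψ h]; norm_num, List.sum_map_mul_right,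
      show (fun ψ : IrrCharacter G => conj ((ψ : G → ℂ) x)) = conj ∘ fun ψ : IrrCharacter G => (ψ : G → ℂ) x from rfl, e1] at hm
    have e2 : (χ : G → ℂ) x = -1 := by simpa [show Int.sign 6 = 1 from rfl] using A.valX (χ, -6) (by simp) x hx.symm.dvd
    simp only [List.map_cons, List.map_nil, List.sum_cons, List.sum_nil, h10.1, h10.2, e2, d1, hn, irrOne_apply] at hm
    have e3 : (m : ℂ) = ((-13716864 : ℤ) : ℂ) := by rw [← hm]; simp [show Int.sign 32 = 1 from rfl, map_ofNat]; norm_num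
    have e4 : (m : ℤ) = -13716864 := by exact_mod_cast e3
    omega
  simp only [List.mem_cons, List.not_mem_nil, or_false] at h6
  rcases h6 with rfl | rfl | rfl | rfl | rfl | rfl | rfl | rfl <;> first
    | exact (key rfl).elim
    | (simp only [List.map_cons, List.map_nil, List.cons.injEq] at h7 h10; rw [h7, h10.1]; norm_num)

theorem dvd27 {n : ℕ} (h : n = 9 ∨ n = 27) : n ∣ 27 := by rcases h with rfl | rfl <;> norm_num

namespace U3T

variable {χ : IrrCharacter G} (h : U3T G χ)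
include h

theorem ord {Q : Subgroup G} (hQ : Nat.card Q ∣ 27) {u : G} (hu : u ∈ Q) (h1 : u ≠ 1) : orderOf u = 3 := by
  obtain ⟨k, h2, h3⟩ := (Nat.dvd_prime_pow Nat.prime_three (m := 3)).1 ((Q.orderOf_dvd_natCard hu).trans hQ)
  interval_cases k
  · exact absurd (orderOf_eq_one_iff.1 h3) h1
  · exact h3
  · exact absurd h3 (h.ne9 u)
  · exact absurd (by rw [orderOf_pow' u (by norm_num), h3]; norm_num) (h.ne9 (u ^ 3))

theorem sum_eq {Q : Subgroup G} [Fintype Q] (hQ : Nat.card Q ∣ 27) (f : Q → ℂ) :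
    ∑ u : Q, (χ : G → ℂ) u * f u = 6 * f 1 - 3 * ∑ u ∈ Finset.univ.filter fun u : Q => (χ : G → ℂ) u = -3, f u := by
  rw [← Finset.add_sum_erase _ _ (Finset.mem_univ 1), Finset.sum_filter, ← Finset.add_sum_erase _ _ (Finset.mem_univ 1),
    OneMemClass.coe_one, h.one, if_neg (by norm_num), zero_add, Finset.mul_sum, sub_eq_add_neg, ← Finset.sum_neg_distrib]
  refine congrArg _ (Finset.sum_congr rfl fun u hu => ?_)
  rcases h.val u (h.ord hQ u.2 fun e => (Finset.mem_erase.1 hu).1 (Subtype.ext e)) with e | e <;> simp [e.1]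

theorem card_two {Q : Subgroup G} [Fintype Q] (hQ : Nat.card Q = 9 ∨ Nat.card Q = 27) :
    (Finset.univ.filter fun u : Q => (χ : G → ℂ) u = -3).card = 2 := by
  obtain ⟨k, hk⟩ := (χ.2.isCharacter.comp Q.subtype).exists_classInner_eq_nat isCharacter_one
  have h1 := card_mul_classInner (φ := fun u : Q => (χ : G → ℂ) u) (ψ := 1)
  rw [h.sum_eq (dvd27 hQ), show classInner (fun u : Q => (χ : G → ℂ) u) 1 = k from hk] at h1
  simp only [Pi.one_apply, map_one, Finset.sum_const, nsmul_eq_mul, mul_one] at h1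
  have h2 : Nat.card Q * k + 3 * (Finset.univ.filter fun u : Q => (χ : G → ℂ) u = -3).card = 6 := by
    generalize (Finset.univ.filter fun u : Q => (χ : G → ℂ) u = -3).card = c at h1 ⊢
    exact_mod_cast (by linear_combination h1 : (Nat.card Q : ℂ) * k + 3 * c = 6)
  rcases hQ with e | e <;> rw [e] at h2 <;> omega

theorem ne_one {z : G} (hz : (χ : G → ℂ) z = -3) : z ≠ 1 := by
  rintro rfl; rw [h.one] at hz; norm_num at hz

theorem inv {z : G} (hz : (χ : G → ℂ) z = -3) : (χ : G → ℂ) z⁻¹ = -3 := by rw [χ.2.isCharacter.apply_inv, hz, map_neg, map_ofNat]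

theorem ne_inv {Q : Subgroup G} (hQ : Nat.card Q ∣ 27) {z : G} (h1 : z ∈ Q) (hz : (χ : G → ℂ) z = -3) : z ≠ z⁻¹ := fun e => by
  have := orderOf_dvd_of_pow_eq_one (show z ^ 2 = 1 by rwa [pow_two, ← eq_inv_iff_mul_eq_one])
  rw [h.ord hQ h1 (h.ne_one hz)] at this
  omega

theorem filter_eq {Q : Subgroup G} [Fintype Q] (hQ : Nat.card Q = 9 ∨ Nat.card Q = 27) {z : Q} (hz : (χ : G → ℂ) z = -3) :
    (Finset.univ.filter fun u : Q => (χ : G → ℂ) u = -3) = {z, z⁻¹} :=
  (Finset.eq_of_subset_of_card_le (by simp [Finset.insert_subset_iff, hz, h.inv hz]) (by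
    rw [h.card_two hQ, Finset.card_pair fun e => h.ne_inv (dvd27 hQ) z.2 hz (congrArg Subtype.val e)])).symm

theorem exists_z {Q : Subgroup G} (hQ : Nat.card Q = 9 ∨ Nat.card Q = 27) : ∃ z ∈ Q, (χ : G → ℂ) z = -3 := by
  have := Fintype.ofFinite Q
  obtain ⟨z, hz⟩ := Finset.card_pos.1 (show 0 < _ by rw [h.card_two hQ]; norm_num)
  exact ⟨z, z.2, (Finset.mem_filter.1 hz).2⟩

theorem eq_or {Q : Subgroup G} (hQ : Nat.card Q = 9 ∨ Nat.card Q = 27) {z w : G} (h1 : z ∈ Q) (hz : (χ : G → ℂ) z = -3)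
    (h2 : w ∈ Q) (hw : (χ : G → ℂ) w = -3) : w = z ∨ w = z⁻¹ := by
  have := Fintype.ofFinite Q
  have : (⟨w, h2⟩ : Q) ∈ ({⟨z, h1⟩, ⟨z, h1⟩⁻¹} : Finset Q) := h.filter_eq hQ (z := ⟨z, h1⟩) hz ▸ by simpa using hw
  simpa [Subtype.ext_iff] using this

variable [Fact (Nat.Prime 3)]

theorem card_syl (P : Sylow 3 G) : Nat.card (P : Subgroup G) = 27 := by
  rw [P.card_eq_multiplicity, h.card]; decide +kernel

theorem le_cent {P : Sylow 3 G} {z : G} (h1 : z ∈ (P : Subgroup G)) (hz : (χ : G → ℂ) z = -3) :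
    (P : Subgroup G) ≤ centralizer {z} := fun g hg => by
  have h2 := h.card_syl P
  rcases h.eq_or (Or.inr h2) h1 hz (mul_mem (mul_mem hg h1) (inv_mem hg)) ((χ.2.isClassFunction z g).trans hz) with e | e
  · exact mem_centralizer_singleton_iff.2 (mul_inv_eq_iff_eq_mul.1 e)
  have e1 : g * z⁻¹ * g⁻¹ = z := by rw [← conj_inv, e, inv_inv]
  have e2 : g ^ 3 = 1 := by
    by_cases e2 : g = 1
    · simp [e2]
    · rw [← h.ord h2.dvd hg e2, pow_orderOf_eq_one]
  refine absurd ?_ (h.ne_inv h2.dvd h1 hz)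
  calc z = g ^ 3 * z * (g ^ 3)⁻¹ := by simp [e2]
    _ = g * (g * (g * z * g⁻¹) * g⁻¹) * g⁻¹ := by simp only [pow_succ, pow_zero, one_mul, mul_inv_rev, mul_assoc]
    _ = _ := by rw [e, e1, e]

theorem normal {P : Sylow 3 G} {z : G} (h1 : z ∈ (P : Subgroup G)) (hz : (χ : G → ℂ) z = -3) :
    ((P : Subgroup G).subgroupOf (centralizer {z})).Normal := by
  have h2 := h.card_syl P
  set C := centralizer ({z} : Set G)
  set Q := (P : Subgroup G).subgroupOf C
  have h3 : Nat.card Q = 27 := (H01.card_subgroupOf_of_le (h.le_cent h1 hz)).trans h2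
  have h4 := Q.card_mul_index
  rw [h3] at h4
  obtain h5 | h5 : Nat.card C = 54 ∨ Nat.card C = 108 := ((h.val z (h.ord h2.dvd h1 (h.ne_one hz))).resolve_left fun e => by
    rw [hz] at e; norm_num at e).2
  · exact normal_of_index_eq_two (by omega)
  have h6 : Q.normalCore.index ∣ Q.index.factorial := by
    rw [normalCore_eq_ker, index_ker, index_eq_card, ← Nat.card_perm]
    exact card_subgroup_dvd_card _
  rw [show Q.index = 4 by omega, show (4 : ℕ).factorial = 24 from rfl] at h6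
  have h7 := Q.normalCore.card_mul_index
  obtain ⟨k, h8, h9⟩ := (Nat.dvd_prime_pow Nat.prime_three (m := 3)).1 (show _ ∣ 27 from h3 ▸ card_dvd_of_le Q.normalCore_le)
  rw [h5, h9] at h7
  interval_cases k
  · rw [show Q.normalCore.index = 108 by omega] at h6; omega
  · rw [show Q.normalCore.index = 36 by omega] at h6; omega
  swap
  · rw [← eq_of_le_of_card_ge Q.normalCore_le (by omega)]; infer_instance
  exfalso
  have := Fact.mk Nat.prime_two
  obtain ⟨V, h10⟩ := Sylow.exists_subgroup_card_pow_prime (G := C) 2 (n := 2) (by rw [h5]; norm_num)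
  set K := Q.normalCore.map C.subtype
  have h11 : Nat.card K = 9 := (card_subtype _ _).trans h9
  obtain ⟨w, h12, h13⟩ := h.exists_z (Or.inl h11)
  have h14 : ∀ a ∈ C, ∀ s ∈ K, a * s * a⁻¹ ∈ K := by
    rintro a ha _ ⟨s, hs, rfl⟩
    exact ⟨_, Q.normalCore_normal.conj_mem s hs ⟨a, ha⟩, rfl⟩
  have h15 : K ≤ P := by
    rintro _ ⟨s, hs, rfl⟩
    exact Q.normalCore_le hs
  have h16 := H02.card_dvd_sub_one_of_fpf_set (A := V.map C.subtype) (S := {s | s ∈ K ∧ (χ : G → ℂ) s ≠ -3})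
    ⟨K.one_mem, by rw [h.one]; norm_num⟩ (fun a ha s hs => ⟨h14 a (map_subtype_le V ha) s hs.1, by
      rw [χ.2.isClassFunction s a]; exact hs.2⟩) fun a ha e s hs e' => by_contra fun e1 => by
    obtain ⟨-, e2⟩ := (h.val s (h.ord (h11 ▸ by norm_num) hs.1 e1)).resolve_right fun e => hs.2 e.1
    have e3 := (orderOf_dvd_natCard _ (mem_centralizer_singleton_iff.2 e')).trans e2
    have e4 := orderOf_dvd_natCard _ ha
    rw [card_subtype, h10] at e4
    exact e (orderOf_eq_one_iff.1 (Nat.eq_one_of_dvd_coprimes (by norm_num) e3 e4))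
  have := Fintype.ofFinite K
  have h17 := Finset.card_filter_add_card_filter_not (s := Finset.univ) fun u : K => (χ : G → ℂ) u = -3
  rw [h.card_two (Or.inl h11), Finset.card_univ, ← Nat.card_eq_fintype_card, h11, ← Fintype.card_subtype,
    ← Nat.card_eq_fintype_card, Nat.card_congr (Equiv.subtypeSubtypeEquivSubtypeInter _ fun s => ¬ (χ : G → ℂ) s = -3)] at h17
  rw [card_subtype, h10, show Nat.card {s | s ∈ K ∧ (χ : G → ℂ) s ≠ -3} = 7 from Nat.add_left_cancel (n := 2) h17] at h16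
  omega

theorem uniq {P R : Sylow 3 G} {z : G} (h1 : z ∈ (P : Subgroup G)) (h2 : z ∈ (R : Subgroup G)) (hz : (χ : G → ℂ) z = -3) :
    R = P := sylow_eq_of_le fun y hy => by
  have := h.normal h1 hz
  have h3 := (H01.card_subgroupOf_of_le (h.le_cent h1 hz)).trans (h.card_syl P)
  have h4 := ((P : Subgroup G).subgroupOf (centralizer {z})).card_mul_index
  have h5 := (h.val z (h.ord (h.card_syl P).dvd h1 (h.ne_one hz))).resolve_left fun e => by
    rw [hz] at e; norm_num at e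
  have h6 : (QuotientGroup.mk' ((P : Subgroup G).subgroupOf (centralizer {z}))) ⟨y, h.le_cent h2 hz hy⟩ = 1 := by
    rw [← orderOf_eq_one_iff]
    refine Nat.eq_one_of_dvd_coprimes (a := 27) (b := 4) (by norm_num) ((orderOf_map_dvd _ _).trans ?_)
      ((_root_.orderOf_dvd_natCard _).trans ?_)
    · rw [orderOf_mk, ← h.card_syl R]; exact orderOf_dvd_natCard _ hy
    · rw [← index_eq_card]; rw [h3] at h4
      rcases h5.2 with e | e <;> rw [e] at h4
      exacts [⟨2, by omega⟩, ⟨1, by omega⟩]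
  exact mem_subgroupOf.1 ((QuotientGroup.eq_one_iff (N := (P : Subgroup G).subgroupOf (centralizer {z})) _).1 h6)

theorem ti {P R : Sylow 3 G} {u : G} (h1 : u ∈ (P : Subgroup G)) (h2 : u ∈ (R : Subgroup G)) (hu : u ≠ 1) : R = P := by
  rcases h.val u (h.ord (h.card_syl P).dvd h1 hu) with ⟨-, h3⟩ | ⟨h3, -⟩
  swap
  · exact h.uniq h1 h2 h3
  obtain ⟨k, -, h4⟩ := (Nat.dvd_prime_pow Nat.prime_three (m := 3)).1 h3
  obtain ⟨Q, hQ⟩ := (IsPGroup.of_card h4).exists_le_sylow
  have key : ∀ P : Sylow 3 G, u ∈ (P : Subgroup G) → P = Q := fun P h1 => by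
    obtain ⟨z, h5, h6⟩ := h.exists_z (Or.inr (h.card_syl P))
    exact h.uniq (hQ (mem_centralizer_singleton_iff.2 (mem_centralizer_singleton_iff.1 (h.le_cent h5 h6 h1)).symm)) h5 h6
  rw [key P h1, key R h2]

theorem not_comm (P : Sylow 3 G) : ¬ IsMulCommutative (P : Subgroup G) := fun hc => by
  have h1 := h.card_syl P
  obtain ⟨z, h2, h3⟩ := h.exists_z (Or.inr h1)
  have := Fintype.ofFinite (P : Subgroup G)
  let _ : CommGroup (P : Subgroup G) := { mul_comm := mul_comm' }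
  obtain ⟨φ, hφ⟩ := CommGroup.exists_apply_ne_one_of_hasEnoughRootsOfUnity (P : Subgroup G) ℂ (a := ⟨z, h2⟩)
    fun e => h.ne_one h3 (congrArg Subtype.val e)
  obtain ⟨k, hk⟩ := (χ.2.isCharacter.comp (P : Subgroup G).subtype).exists_classInner_eq_nat (isCharacter_monoidHom φ)
  have h4 := card_mul_classInner (φ := fun u : (P : Subgroup G) => (χ : G → ℂ) u) (ψ := fun u => (φ u : ℂ))
  rw [h.sum_eq h1.dvd, show classInner (fun u : (P : Subgroup G) => (χ : G → ℂ) u) (fun u => (φ u : ℂ)) = k from hk,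
    h.filter_eq (Or.inr h1) (z := ⟨z, h2⟩) h3,
    Finset.sum_pair fun e => h.ne_inv h1.dvd h2 h3 (congrArg Subtype.val e), h1, ← map_add] at h4
  have h5 : (φ ⟨z, h2⟩ : ℂ) ^ 3 = 1 := by
    rw [← Units.val_pow_eq_pow_val, ← map_pow, show (⟨z, h2⟩ : (P : Subgroup G)) ^ 3 = 1 from Subtype.ext
      (orderOf_dvd_iff_pow_eq_one.1 (h.ord h1.dvd h2 (h.ne_one h3)).dvd), map_one, Units.val_one]
  have h6 : (φ ⟨z, h2⟩ : ℂ) * (φ ⟨z, h2⟩⁻¹ : ℂ) = 1 := by rw [← Units.val_mul, ← map_mul, mul_inv_cancel, map_one, Units.val_one]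
  have h7 : (φ ⟨z, h2⟩ : ℂ) - 1 ≠ 0 := fun e => hφ (Units.ext (sub_eq_zero.1 e))
  have h8 : (φ ⟨z, h2⟩ : ℂ) + (φ ⟨z, h2⟩⁻¹ : ℂ) = -1 := mul_left_cancel₀ h7 (by
    linear_combination (φ ⟨z, h2⟩⁻¹ : ℂ) * h5 + (1 - (φ ⟨z, h2⟩ : ℂ) ^ 2) * h6)
  rw [h8] at h4
  have h9 : 27 * k = 9 := by
    simp only [map_one, Units.val_one, map_neg] at h4
    exact_mod_cast (by linear_combination h4 : (27 : ℂ) * k = 9)
  omega

end U3T

end H19
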