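import Mathlib
import Cfsg.Agent.H19.G2a
import Cfsg.Agent.H19.G2b
import Cfsg.Agent.H19.G2c

/-!
Groups of order 12096 without elements of order 9, 14, 21 are isomorphic (namespace H19).
* `U3.exists_label`, `U3.exists_range`, `G2H.exists_range`, `G2H.equiv`
-/

set_option linter.unusedSectionVars false

open Equiv Subgroup Cfsg

namespace H19

namespace U3

theorem m_ne : ∀ x y, x ≠ 27 → y ≠ 27 → m x y ≠ 27 := by decide +kernel

theorem exists_label {Q : Type*} [Group Q] [Finite Q] (h1 : Nat.card Q = 27) (h2 : ∀ g : Q, g ^ 3 = 1)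
    (h3 : ¬ IsMulCommutative Q) : ∃ f : Fin 28 → Q, f 0 = 1 ∧ (∀ x y, x ≠ 27 → y ≠ 27 → f (m x y) = f x * f y) ∧
      ∀ x y, x ≠ 27 → y ≠ 27 → f x = f y → x = y := by
  have := Fact.mk Nat.prime_three
  obtain ⟨a, b, hab⟩ : ∃ a b : Q, a * b ≠ b * a := by_contra fun e => h3 ⟨⟨by simpa using e⟩⟩
  have : Nontrivial Q := Finite.one_lt_card_iff_nontrivial.1 (by omega)
  have h4 : IsPGroup 3 Q := IsPGroup.of_card (n := 3) h1
  have := h4.center_nontrivial
  have h5 : IsMulCommutative (Q ⧸ center Q) := by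
    have e1 := (center Q).card_mul_index
    have e2 := Finite.one_lt_card_iff_nontrivial.2 this
    obtain ⟨k, e3, e4⟩ := (Nat.dvd_prime_pow Nat.prime_three (m := 3)).1 (h1 ▸ (center Q).index_dvd_card : _ ∣ 27)
    rw [e4, h1] at e1
    rw [index_eq_card] at e4
    interval_cases k
    · have := isCyclic_of_card_dvd_prime (p := 3) (e4 ▸ by norm_num : Nat.card (Q ⧸ center Q) ∣ 3); infer_instance
    · have := isCyclic_of_card_dvd_prime (p := 3) (e4 ▸ by norm_num : Nat.card (Q ⧸ center Q) ∣ 3); infer_instance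
    · exact IsPGroup.isMulCommutative_of_card_eq_prime_sq e4
    · omega
  obtain ⟨z, h6, h7⟩ : ∃ z ∈ center Q, b * a = a * b * z := ⟨(a * b)⁻¹ * (b * a), QuotientGroup.eq.1 (by
    rw [QuotientGroup.mk_mul, mul_comm', QuotientGroup.mk_mul]), by group⟩
  have hz : ∀ (g : Q) (n : ℕ), z ^ n * g = g * z ^ n := fun g n => (mem_center_iff.1 (pow_mem h6 n) g).symm
  have c1 : ∀ i : ℕ, b * a ^ i = a ^ i * b * z ^ i := fun i => by
    induction i with
    | zero => simp
    | succ i ih =>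
      calc _ = a ^ i * b * (z ^ i * a) := by rw [pow_succ, ← mul_assoc, ih, mul_assoc]
        _ = a ^ i * (b * a) * z ^ i := by rw [hz]; simp only [mul_assoc]
        _ = _ := by rw [h7, pow_succ, pow_succ' z]; simp only [mul_assoc]
  have c2 : ∀ i j : ℕ, b ^ j * a ^ i = a ^ i * b ^ j * z ^ (j * i) := fun i j => by
    induction j with
    | zero => simp
    | succ j ih =>
      calc _ = b * a ^ i * b ^ j * z ^ (j * i) := by rw [pow_succ', mul_assoc, ih]; simp only [mul_assoc]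
        _ = a ^ i * b * (z ^ i * b ^ j) * z ^ (j * i) := by rw [c1]; simp only [mul_assoc]
        _ = _ := by rw [hz, pow_succ', add_one_mul, add_comm, pow_add]; simp only [mul_assoc]
  have key : ∀ (g : Q) (u v : ℕ), u % 3 = v % 3 → g ^ u = g ^ v := fun g u v e => by
    rw [pow_eq_pow_mod u (h2 g), e, ← pow_eq_pow_mod v (h2 g)]
  obtain ⟨f, hf⟩ : ∃ f : Fin 28 → Q, ∀ x, f x = a ^ x.val * b ^ (x.val / 3) * z ^ (x.val / 9) := ⟨_, fun _ => rfl⟩
  have f1 : ∀ x y, x ≠ 27 → y ≠ 27 → f (m x y) = f x * f y := fun x y hx hy => by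
    rw [hf, hf, hf, m_val x y hx hy]
    calc _ = a ^ (x.val + y.val) * b ^ (x.val / 3 + y.val / 3) * z ^ (x.val / 3 * y.val + x.val / 9 + y.val / 9) := by
          generalize x.val / 3 * y.val = c
          generalize x.val = i
          generalize y.val = j
          rw [key a _ (i + j) (by omega), key b _ (i / 3 + j / 3) (by omega), key z _ (c + i / 9 + j / 9) (by
            rw [(by omega : ∀ u v w : ℕ, u < 3 → v < 3 → (u + 3 * v + 9 * w) / 9 = w) _ _ _ (by omega) (by omega)]; omega)]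
      _ = a ^ x.val * a ^ y.val * b ^ (x.val / 3) * (z ^ (x.val / 3 * y.val) * b ^ (y.val / 3)) * z ^ (x.val / 9) *
          z ^ (y.val / 9) := by rw [hz _ (_ * _)]; simp only [pow_add, mul_assoc]
      _ = a ^ x.val * b ^ (x.val / 3) * (a ^ y.val * b ^ (y.val / 3) * z ^ (x.val / 9)) * z ^ (y.val / 9) := by
          have := congrArg (fun g => a ^ x.val * g * b ^ (y.val / 3) * z ^ (x.val / 9) * z ^ (y.val / 9)) (c2 y.val (x.val / 3))
          simpa only [mul_assoc] using this.symm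
      _ = _ := by rw [← hz (a ^ y.val * _)]; simp only [mul_assoc]
  have f2 : f 9 ≠ 1 := fun e => hab (by
    rw [hf, key a (9 : Fin 28).val 0 rfl, key b ((9 : Fin 28).val / 3) 0 rfl, key z ((9 : Fin 28).val / 9) 1 rfl] at e
    rw [h7, show z = 1 by simpa using e, mul_one])
  have f3 : ∀ x, x ≠ 27 → f (m x x) * f x = 1 := fun x hx => by rw [f1 x x hx hx, ← h2 (f x), pow_three']
  refine ⟨f, by simp [hf], f1, fun x y hx hy e => (by decide +kernel : ∀ x y, m (m x x) y = 0 → x = y) x y (by_contra fun e1 => ?_)⟩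
  have e2 := m_ne _ _ (m_ne x x hx hx) hy
  have e3 : f (m (m x x) y) = 1 := by rw [f1 _ _ (m_ne x x hx hx) hy, ← e, f3 x hx]
  generalize m (m x x) y = d at e1 e2 e3
  obtain ⟨u, hu, e4 | e4 | e4⟩ := (by decide +kernel : ∀ d : Fin 28, d ≠ 27 → d ≠ 0 → ∃ u, u ≠ 27 ∧
    (d = 9 ∨ m d d = 9 ∨ m (m (m d d) (m u u)) (m d u) = 9)) d e2 e1
  · exact f2 (e4 ▸ e3)
  · exact f2 (by rw [← e4, f1 _ _ e2 e2, e3, one_mul])
  · exact f2 (by rw [← e4, f1 _ _ (m_ne _ _ (m_ne _ _ e2 e2) (m_ne _ _ hu hu)) (m_ne _ _ e2 hu),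
      f1 _ _ (m_ne _ _ e2 e2) (m_ne _ _ hu hu), f1 _ _ e2 e2, f1 _ _ e2 hu, e3, one_mul, one_mul, one_mul, f3 u hu])

theorem exists_range {G Ω : Type*} [Group G] [Finite G] [MulAction G Ω] [FaithfulSMul G Ω] [MulAction.IsPretransitive G Ω]
    (hG : Nat.card G = 12096) (hΩ : Nat.card Ω = 28) {P : Subgroup G} (h1 : Nat.card P = 27) (h2 : ∀ g : P, g ^ 3 = 1)
    (h3 : ¬ IsMulCommutative P) {ω : Ω} (h4 : ∀ g : G, g • ω = ω ↔ g ∈ normalizer (P : Set G))
    (h5 : ∀ g ∈ P, ∀ x, x ≠ ω → g • x = x → g = 1) :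
    ∃ φ : G →* Perm (Fin 28), Function.Injective φ ∧ φ.range = K := by
  obtain ⟨f, f0, f1, f2⟩ := exists_label h1 h2 h3
  have : Finite Ω := Nat.finite_of_card_ne_zero (by omega)
  have : Nontrivial Ω := Finite.one_lt_card_iff_nontrivial.1 (by omega)
  obtain ⟨o, ho⟩ := exists_ne ω
  have a1 : ∀ g : P, (g : G) • ω = ω := fun g => (h4 g).2 (le_normalizer g.2)
  have a2 : ∀ g g' : P, (g : G) • o = (g' : G) • o → g = g' := fun g g' e => (inv_mul_eq_one.1 (Subtype.ext
    (h5 _ (g'⁻¹ * g).2 o ho (by rw [coe_mul, coe_inv, mul_smul, e, inv_smul_smul])))).symm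
  have a3 : ∀ g : P, (g : G) • o ≠ ω := fun g e => ho (smul_left_cancel (g : G) (e.trans (a1 g).symm))
  obtain ⟨e, e1, e2⟩ : ∃ e : Fin 28 ≃ Ω, e 27 = ω ∧ ∀ x, x ≠ 27 → e x = (f x : G) • o :=
    ⟨Equiv.ofBijective (fun x => if x = 27 then ω else (f x : G) • o) ((Nat.bijective_iff_injective_and_card _).2
      ⟨fun x y e => by
        dsimp only at e
        split_ifs at e with hx hy hy
        exacts [hx.trans hy.symm, absurd e.symm (a3 _), absurd e (a3 _), f2 x y hx hy (a2 _ _ e)], by simp [hΩ]⟩),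
      by simp, fun x hx => by simp [hx]⟩
  obtain ⟨ρ, r1, r2⟩ : ∃ ρ : G →* Perm (Fin 28), Function.Injective ρ ∧ ∀ g i j, ρ g i = j ↔ g • e i = e j :=
    ⟨e.symm.permCongrHom.toMonoidHom.comp (MulAction.toPermHom G Ω),
      e.symm.permCongrHom.injective.comp MulAction.toPerm_injective, fun _ _ _ => e.symm_apply_eq⟩
  have e0 : e 0 = o := by rw [e2 0 (by decide), f0]; simp
  have m1 : ∀ x, m 27 x = 27 := by decide +kernel
  obtain ⟨s, hs⟩ := exists_conj (H := ρ.range) (fun x hx => ⟨_, ⟨f x, rfl⟩, fun y => (r2 _ _ _).2 (by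
      by_cases hy : y = 27
      · rw [hy, (m_zero x).2, e1, a1]
      · rw [e2 y hy, e2 _ (m_ne x y hx hy), f1 x y hx hy, coe_mul, mul_smul])⟩)
    (by
      obtain ⟨g, hg⟩ := MulAction.exists_smul_eq G (e 27) (e 0)
      exact ⟨_, ⟨g, rfl⟩, (r2 _ _ _).2 hg⟩)
    ((Nat.card_congr (MonoidHom.ofInjective r1).toEquiv).symm.trans hG) (by
      rintro _ ⟨g, rfl⟩ b1 b2
      have b3 := (r2 _ _ _).1 b1
      have b4 := (r2 _ _ _).1 b2
      rw [e1, h4] at b3
      rw [e0] at b4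
      have b5 : ∀ x, x ≠ 27 → ρ g x ≠ 27 := fun x hx e => hx ((ρ g).injective (e.trans b1.symm))
      have b6 : ∀ x, x ≠ 27 → (f (ρ g x) : G) = g * f x * g⁻¹ := fun x hx =>
        congrArg Subtype.val (a2 _ ⟨_, (mem_normalizer_iff.1 b3 _).1 (f x).2⟩ (by
          rw [← e2 _ (b5 x hx), ← (r2 g x _).1 rfl, e2 x hx, mul_smul, mul_smul, inv_smul_eq_iff.2 b4.symm]))
      refine ⟨b2, b1, fun x y => ?_⟩
      by_cases hx : x = 27
      · rw [hx, m1, b1, m1]
      by_cases hy : y = 27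
      · rw [hy, (m_zero _).2, b1, (m_zero _).2]
      rw [r2, e2 _ (m_ne x y hx hy), e2 _ (m_ne _ _ (b5 x hx) (b5 y hy)), f1 x y hx hy, f1 _ _ (b5 x hx) (b5 y hy),
        coe_mul, coe_mul, b6 x hx, b6 y hy, conj_mul, mul_smul (g * _), inv_smul_eq_iff.2 b4.symm, mul_smul g])
  exact ⟨(MulAut.conj s).toMonoidHom.comp ρ, (MulAut.conj s).injective.comp r1, by rw [MonoidHom.range_comp, hs]⟩

end U3

namespace G2H

variable {G : Type*} [Group G] [Finite G] (h : G2H G)
include h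

theorem exists_range : ∃ φ : G →* Perm (Fin 28), Function.Injective φ ∧ φ.range = U3.K := by
  have := Fact.mk Nat.prime_three
  obtain ⟨S, _, _, h1⟩ := h.exists_simple
  obtain ⟨χ, U⟩ := exists_u3T h1 fun g => orderOf_coe g ▸ h.ne9 g
  have h2 : ∀ P : Sylow 3 G, Nat.card (P : Subgroup G) = 27 := fun P => by
    rw [P.card_eq_multiplicity, h.card]; decide +kernel
  have h3 : ∀ P : Sylow 3 G, (P : Subgroup G) ≤ S := fun P g hg => mem_of_coprime_index (by
    have := S.card_mul_index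
    rw [h1, h.card] at this
    rw [show S.index = 2 by omega]
    exact Nat.Coprime.coprime_dvd_left (h2 P ▸ Subgroup.orderOf_dvd_natCard _ hg : _ ∣ 27) (by norm_num))
  have h4 : ∀ P R : Sylow 3 G, ∀ u ∈ (P : Subgroup G), u ∈ (R : Subgroup G) → R ≠ P → u = 1 := fun P R u e1 e2 e3 =>
    by_contra fun e => e3 (Sylow.subtype_injective (U.ti (P := P.subtype (h3 P)) (R := R.subtype (h3 R)) (u := ⟨u, h3 P e1⟩)
      e1 e2 fun e' => e (congrArg Subtype.val e')))
  obtain ⟨P⟩ : Nonempty (Sylow 3 G) := inferInstance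
  have h5 := card_sylow_mul_card_normalizer P
  have h6 : Nat.card (Sylow 3 G) = 28 := by
    have e1 : Nat.card (Sylow 3 G) ≡ 1 [MOD 3 ^ 3] := by_contra fun e => by
      obtain ⟨R, e1, e2⟩ := exists_sylow_pair_index_le 3 e P
      rw [(eq_bot_iff_forall ((R : Subgroup G).subgroupOf P)).2 fun u hu => Subtype.ext (h4 P R u u.2 hu e1.symm),
        index_bot, h2] at e2
      omega
    have e2 := P.card_dvd_index
    have e3 := (P : Subgroup G).card_mul_index
    rw [h2, h.card] at e3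
    rw [show (P : Subgroup G).index = 448 by omega] at e2
    refine ((by decide +kernel : ∀ n ∈ Nat.divisors 448, n % 27 = 1 → n = 1 ∨ n = 28) _
      (Nat.mem_divisors.2 ⟨e2, by norm_num⟩) e1).resolve_left fun e4 => ?_
    rw [e4, one_mul] at h5
    have : (P : Subgroup G).Normal := normalizer_eq_top_iff.1 (eq_top_of_card_eq _ h5)
    have := h2 P
    rw [h.normal_bot (M := P) (by omega), card_bot] at this
    omega
  rw [h6, h.card] at h5
  have : FaithfulSMul G (Sylow 3 G) := ⟨fun {g g'} e => by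
    have e1 : (MulAction.toPermHom G (Sylow 3 G)).ker = ⊥ := h.normal_bot fun e1 => by
      have := e1.trans (card_dvd_of_le (show _ ≤ normalizer (P : Set G) from fun g hg =>
        Sylow.smul_eq_iff_mem_normalizer.1 (DFunLike.congr_fun hg P)))
      omega
    exact (MonoidHom.ker_eq_bot_iff _).1 e1 (Equiv.ext e)⟩
  refine U3.exists_range h.card h6 (h2 P) (fun g => Subtype.ext ?_) (fun e => U.not_comm (P.subtype (h3 P)) ⟨⟨fun a b => ?_⟩⟩)
    (ω := P) (fun g => Sylow.smul_eq_iff_mem_normalizer) fun g e1 R e2 e3 => h4 P R g e1 ?_ e2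
  · by_cases e : g = 1
    · simp [e]
    exact orderOf_dvd_iff_pow_eq_one.1 ((orderOf_mk _ (h3 P g.2)).symm.trans (U.ord (Q := P.subtype (h3 P))
      (U.card_syl _).dvd g.2 fun e' => e (Subtype.ext (congrArg Subtype.val e' :)))).dvd
  · exact Subtype.ext (Subtype.ext (congrArg Subtype.val (mul_comm' (⟨a, a.2⟩ : (P : Subgroup G)) ⟨b, b.2⟩) :))
  · exact ((P.2.inf_normalizer_sylow R).le ⟨e1, Sylow.smul_eq_iff_mem_normalizer.1 e3⟩).2

theorem equiv {M : Type*} [Group M] [Finite M] (h' : G2H M) : Nonempty (G ≃* M) := by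
  obtain ⟨φ, h1, h2⟩ := h.exists_range
  obtain ⟨ψ, h3, h4⟩ := h'.exists_range
  exact ⟨(MonoidHom.ofInjective h1).trans ((MulEquiv.subgroupCongr (h2.trans h4.symm)).trans (MonoidHom.ofInjective h3).symm)⟩

end G2H

end H19
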