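import Mathlib
import Cfsg.Agent.H06.J0

/-! Part L of the S5566 cluster: lifting the hexad subgroup to the triple cover. -/

set_option autoImplicit false
open Cfsg Subgroup Cfsg.Agent.H06.J

namespace Cfsg.Agent.H19.JL

universe u v w

theorem tp {G : Type v} {Γ : Type w} [Group G] [Group Γ] (f : G →* Γ) (hf : Function.Injective f) {d : G}
    {K Y : Subgroup G} (h : Hx d K Y) : Hx (f d) (K.map f) (Y.map f) := by
  have cm : ∀ J, J ≤ K.map f → J.comap f ≤ K := fun J hJ =>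
    (comap_mono hJ).trans (comap_map_eq_self_of_injective hf K).le
  refine ⟨mem_map_of_mem f h.dK, map_mono h.YK, by rw [card_map_of_injective hf, h.cY], ?_, ?_, ?_, ?_, ?_, ?_⟩
  · rintro _ ⟨y, hy, rfl⟩
    rw [← map_mul, h.Y2 y hy, map_one]
  · rintro _ ⟨k, hk, rfl⟩ _ ⟨y, hy, rfl⟩
    exact ⟨_, h.nY k hk y hy, by simp⟩
  · rintro _ ⟨y, hy, rfl⟩ _ ⟨y', hy', rfl⟩ n n'
    obtain ⟨k, hk, e⟩ := h.tr y hy y' hy' (by rintro rfl; simp at n) (by rintro rfl; simp at n')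
    exact ⟨_, mem_map_of_mem f hk, by rw [← e]; simp⟩
  · intro J hJ hY hd hi
    exact map_le_iff_le_comap.2 (h.s1 _ (cm J hJ) (map_le_iff_le_comap.1 hY) hd (by rwa [relIndex_comap]))
  · intro N hN hY hd hn
    refine (h.s2 _ (cm N hN) (map_le_iff_le_comap.1 hY) hd fun k hk n m => ?_).imp map_le_iff_le_comap.2 fun e g hg g2 => ?_
    · simpa using hn _ (mem_map_of_mem f hk) _ m
    · obtain ⟨x, -, rfl⟩ := hN hg
      exact mem_map_of_mem f (e x hg (hf (by simpa using g2)))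
  · intro E hE e2
    have e : (E.comap f).map f = E := map_comap_eq_self (hE.trans (map_le_range f K))
    have := h.s3 _ (cm E hE) fun g hg => hf (by simpa using e2 _ hg)
    rwa [← card_map_of_injective hf, ← card_map_of_injective (K := _ ⊓ _) hf, map_inf_eq _ _ _ hf, e] at this

theorem up {G : Type v} {H : Type w} [Group G] [Finite G] [Group H] {d : G} (ρ : G →* H) {K₀ Y₀ : Subgroup H}
    (d3 : d * (d * d) = 1) (dc : ∀ g, g * d = d * g) (dG : d ∈ commutator G) (sj : Function.Surjective ρ)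
    (kr : ∀ m, ρ m = 1 ↔ m ∈ zpowers d) (h : Hx 1 K₀ Y₀) (hi : K₀.index = 77) :
    ∃ K Y : Subgroup G, Hx d K Y ∧ K.index = 77 ∧ d ∈ ⁅K, K⁆ := by
  have d3' : d ^ 3 = 1 := by rw [← d3, pow_three]
  have zc : ∀ a, ρ a = 1 → ∀ g, g * a = a * g := fun a ha =>
    mem_center_iff.1 (zpowers_le.2 (mem_center_iff.2 dc) ((kr a).1 ha))
  have z3 : ∀ a, ρ a = 1 → a ^ 3 = 1 := fun a ha => by
    obtain ⟨i, rfl⟩ := (kr a).1 ha
    show (d ^ i) ^ 3 = 1
    rw [← zpow_natCast, ← zpow_mul, mul_comm, zpow_mul, zpow_natCast, d3', one_zpow]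
  have z2 : ∀ a, ρ a = 1 → a * a = 1 → a = 1 := fun a ha a2 => by
    have := z3 a ha
    rwa [pow_three, a2, mul_one] at this
  have uq : ∀ y y', y * y = 1 → y' * y' = 1 → ρ y = ρ y' → y = y' := fun y y' a b e => by
    have r : ρ (y⁻¹ * y') = 1 := by simp [e]
    refine inv_mul_eq_one.1 (z2 _ r ?_)
    calc _ = y⁻¹ * (y' * (y⁻¹ * y')) := by group
      _ = (y * y)⁻¹ * (y' * y') := by rw [zc _ r y']; group
      _ = 1 := by rw [a, b]; simp
  have lf : ∀ y₀ : H, y₀ * y₀ = 1 → ∃ y, ρ y = y₀ ∧ y * y = 1 := fun y₀ e => by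
    obtain ⟨g, rfl⟩ := sj y₀
    refine ⟨g ^ 3, by rw [map_pow, pow_three, e, mul_one], ?_⟩
    rw [← (Commute.refl g).mul_pow]
    exact z3 _ (by rw [map_mul, e])
  have iv : ∀ {X : Type w} [Group X] (a : X), a * a = 1 → a⁻¹ = a := fun a e => inv_eq_of_mul_eq_one_right e
  let Y : Subgroup G :=
    { carrier := {g | ρ g ∈ Y₀ ∧ g * g = 1}
      one_mem' := ⟨by simp, by simp⟩
      inv_mem' := fun {g} ⟨a, b⟩ => ⟨by simpa using a, by rw [← mul_inv_rev, b, inv_one]⟩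
      mul_mem' := fun {g k} ⟨a, b⟩ ⟨a', b'⟩ => ⟨by simpa using mul_mem a a', by
        refine z2 _ (by simpa only [map_mul] using h.Y2 _ (mul_mem a a')) ?_
        have c := zc (g * k * (g * k)) (by simpa only [map_mul] using h.Y2 _ (mul_mem a a')) g
        have g1 : g⁻¹ = g := inv_eq_of_mul_eq_one_right b
        have k1 : k⁻¹ = k := inv_eq_of_mul_eq_one_right b'
        have e : g * (g * k * (g * k)) * g⁻¹ = (g * k * (g * k))⁻¹ := by
          simp only [mul_inv_rev, g1, k1]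
          calc _ = (g * g) * (k * g * (k * g)) := by group
            _ = _ := by rw [b, one_mul]
        rw [c, mul_inv_cancel_right] at e
        exact mul_eq_one_iff_eq_inv.2 e⟩ }
  have mY : ∀ g, g ∈ Y ↔ ρ g ∈ Y₀ ∧ g * g = 1 := fun _ => Iff.rfl
  have r1 : ρ d = 1 := (kr d).2 (mem_zpowers d)
  have cc : ∀ J : Subgroup G, d ∈ J → (J.map ρ).comap ρ = J := fun J hd =>
    comap_map_eq_self fun m hm => zpowers_le.2 hd ((kr m).1 hm)
  have yy : ∀ J : Subgroup G, Y ≤ J → Y₀ ≤ J.map ρ := fun J hJ y hy => by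
    obtain ⟨g, rfl, e⟩ := lf y (h.Y2 y hy)
    exact mem_map_of_mem ρ (hJ ⟨hy, e⟩)
  have ix : (K₀.comap ρ).index = 77 := by rw [index_comap_of_surjective _ sj, hi]
  have dK : d ∈ K₀.comap ρ := by rw [mem_comap, r1]; exact one_mem _
  refine ⟨K₀.comap ρ, Y, ⟨dK, fun y hy => h.YK hy.1, ?_, fun y hy => hy.2, fun k hk y hy => ⟨by simpa using h.nY _ hk _ hy.1, ?_⟩,
    fun y hy y' hy' n n' => ?_, fun J hJ hY hd hi => ?_, fun N hN hY hd hn => ?_, fun E hE e2 => ?_⟩, ix, ?_⟩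
  · rw [← h.cY]
    refine Nat.card_congr (Equiv.ofBijective (fun y : Y => (⟨ρ y, y.2.1⟩ : Y₀)) ⟨fun a b e => ?_, fun y => ?_⟩)
    · exact Subtype.ext (uq _ _ a.2.2 b.2.2 (congrArg Subtype.val e))
    · obtain ⟨g, e, g2⟩ := lf y (h.Y2 _ y.2)
      exact ⟨⟨g, by rw [e]; exact y.2, g2⟩, Subtype.ext e⟩
  · rw [conj_mul, hy.2]; simp
  · obtain ⟨k₀, hk, e⟩ := h.tr _ hy.1 _ hy'.1 (fun r => n (z2 _ r hy.2)) (fun r => n' (z2 _ r hy'.2))
    obtain ⟨k, rfl⟩ := sj k₀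
    exact ⟨k, hk, uq _ _ (by rw [conj_mul, hy.2]; simp) hy'.2 (by simpa using e)⟩
  · have := h.s1 _ (map_le_iff_le_comap.2 hJ) (yy J hY) (one_mem _)
      (by rwa [← cc J hd, relIndex_comap, map_comap_eq_self_of_surjective sj] at hi)
    exact (comap_mono this).trans (cc J hd).le
  · refine (h.s2 _ (map_le_iff_le_comap.2 hN) (yy N hY) (one_mem _) ?_).imp
      (fun e => (comap_mono e).trans (cc N hd).le) fun e g hg g2 => ⟨e _ (mem_map_of_mem ρ hg) (by rw [← map_mul, g2, map_one]), g2⟩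
    rintro k₀ hk _ ⟨n, m, rfl⟩
    obtain ⟨k, rfl⟩ := sj k₀
    exact ⟨_, hn k hk n m, by simp⟩
  · have := h.s3 _ (map_le_iff_le_comap.2 hE) (by rintro _ ⟨g, hg, rfl⟩; rw [← map_mul, e2 g hg, map_one])
    have a : Nat.card E ≤ Nat.card (E.map ρ) := by
      have : Finite (E.map ρ) := Finite.of_surjective _ (ρ.subgroupMap_surjective E)
      exact Nat.card_le_card_of_injective (ρ.subgroupMap E) fun a b e =>
        Subtype.ext (uq _ _ (e2 _ a.2) (e2 _ b.2) (congrArg Subtype.val e))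
    have b : E.map ρ ⊓ Y₀ = (E ⊓ Y).map ρ := le_antisymm
      (by rintro _ ⟨⟨g, hg, rfl⟩, y⟩; exact mem_map_of_mem ρ ⟨hg, y, e2 g hg⟩)
      (by rintro _ ⟨g, ⟨hg, y⟩, rfl⟩; exact ⟨mem_map_of_mem ρ hg, y.1⟩)
    have c : Nat.card ((E ⊓ Y).map ρ) ≤ Nat.card ↥(E ⊓ Y) :=
      Nat.card_le_card_of_surjective _ (ρ.subgroupMap_surjective _)
    rw [b] at this
    omega
  · set K := K₀.comap ρ
    have key : ∀ (k : ℕ) (g₀ : G), g₀⁻¹ * d ^ k * g₀ ∈ K → g₀⁻¹ * d ^ k * g₀ = d ^ k := fun k g _ => by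
      rw [zc (d ^ k) (by simp [r1]) g⁻¹]; simp
    have t := MonoidHom.transfer_eq_pow (Abelianization.of : K →* Abelianization K) d key
    have t1 : MonoidHom.transfer (Abelianization.of : K →* Abelianization K) d = 1 :=
      Abelianization.commutator_subset_ker _ dG
    have m : d ^ K.index ∈ ⁅K, K⁆ := by
      rw [← map_subtype_commutator]
      exact ⟨⟨_, MonoidHom.transfer_eq_pow_aux d key⟩, by rw [← Abelianization.ker_of]; exact t.symm.trans t1, rfl⟩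
    have e : d = (d ^ K.index) ^ 2 := by
      rw [ix, ← pow_mul, show 77 * 2 = 3 * 51 + 1 from rfl, pow_succ, pow_mul, d3', one_pow, one_mul]
    rw [e]; exact pow_mem m 2

theorem l : LStmt.{u} := by
  intro Γ _ _ d M ρ K₀ Y₀ d3 dM dc dG sj kr h hi
  obtain ⟨K, Y, hx, i, c⟩ := up (d := (⟨d, dM⟩ : M)) ρ (Subtype.ext d3) (fun g => Subtype.ext (dc _ g.2))
    (by
      rw [← map_subtype_commutator] at dG
      obtain ⟨x, hx, rfl⟩ := dG
      exact hx) sj
    (fun m => (kr m).trans ⟨fun ⟨i, e⟩ => ⟨i, Subtype.ext e⟩, fun ⟨i, e⟩ => ⟨i, congrArg Subtype.val e⟩⟩) h hi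
  refine ⟨_, _, tp M.subtype M.subtype_injective hx, map_subtype_le _, ?_, ?_⟩
  · rw [relIndex, subgroupOf, comap_map_eq_self_of_injective M.subtype_injective, i]
  · rw [← Subgroup.map_commutator]
    exact mem_map_of_mem M.subtype c

end Cfsg.Agent.H19.JL
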