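import Mathlib
import Cfsg.Agent.H23.K0
import Cfsg.Agent.H19.JL

/-! Part L2 of the S5567 cluster: lifting the hexad subgroup data to the triple cover. -/

set_option autoImplicit false
open Cfsg BG Subgroup Cfsg.Agent.H06.J Cfsg.Agent.H23.K

namespace Cfsg.Agent.H19.KL

universe u v w

theorem up2 {G : Type v} {H : Type w} [Group G] [Finite G] [Group H] {d : G} (ρ : G →* H) {K₀ Y₀ : Subgroup H}
    (d3 : d * (d * d) = 1) (dc : ∀ g, g * d = d * g) (dG : d ∈ commutator G) (sj : Function.Surjective ρ)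
    (kr : ∀ m, ρ m = 1 ↔ m ∈ zpowers d) (h : Hx 1 K₀ Y₀) (hi : K₀.index = 77) :
    ∃ Y : Subgroup G, (∀ g, g ∈ Y ↔ ρ g ∈ Y₀ ∧ g * g = 1) ∧ (∀ y₀ : H, y₀ * y₀ = 1 → ∃ y, ρ y = y₀ ∧ y * y = 1) ∧
      Hx d (K₀.comap ρ) Y ∧ d ∈ ⁅K₀.comap ρ, K₀.comap ρ⁆ := by
  have d3' : d ^ 3 = 1 := by rw [← d3, pow_three]
  have zc : ∀ a, ρ a = 1 → ∀ g, g * a = a * g := fun a ha =>
    mem_center_iff.1 (zpowers_le.2 (mem_center_iff.2 dc) ((kr a).1 ha))
  have z3 : ∀ a, ρ a = 1 → a ^ 3 = 1 := fun a ha => by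
    obtain ⟨i, rfl⟩ := (kr a).1 ha
    show (d ^ i) ^ 3 = 1
    rw [← zpow_natCast, ← zpow_mul, mul_comm, zpow_mul, zpow_natCast, d3', one_zpow]
  have z2 : ∀ a, ρ a = 1 → a * a = 1 → a = 1 := fun a ha a2 => by
    have := z3 a ha
    rwa [pow_three, a2, mul_one] at this
  have uq : ∀ y y', y * y = 1 → y' * y' = 1 → ρ y = ρ y' → y = y' := fun y y' a b e => by
    have r : ρ (y⁻¹ * y') = 1 := by simp [e]
    refine inv_mul_eq_one.1 (z2 _ r ?_)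
    calc _ = y⁻¹ * (y' * (y⁻¹ * y')) := by group
      _ = (y * y)⁻¹ * (y' * y') := by rw [zc _ r y']; group
      _ = 1 := by rw [a, b]; simp
  have lf : ∀ y₀ : H, y₀ * y₀ = 1 → ∃ y, ρ y = y₀ ∧ y * y = 1 := fun y₀ e => by
    obtain ⟨g, rfl⟩ := sj y₀
    refine ⟨g ^ 3, by rw [map_pow, pow_three, e, mul_one], ?_⟩
    rw [← (Commute.refl g).mul_pow]
    exact z3 _ (by rw [map_mul, e])
  have iv : ∀ {X : Type w} [Group X] (a : X), a * a = 1 → a⁻¹ = a := fun a e => inv_eq_of_mul_eq_one_right e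
  let Y : Subgroup G :=
    { carrier := {g | ρ g ∈ Y₀ ∧ g * g = 1}
      one_mem' := ⟨by simp, by simp⟩
      inv_mem' := fun {g} ⟨a, b⟩ => ⟨by simpa using a, by rw [← mul_inv_rev, b, inv_one]⟩
      mul_mem' := fun {g k} ⟨a, b⟩ ⟨a', b'⟩ => ⟨by simpa using mul_mem a a', by
        refine z2 _ (by simpa only [map_mul] using h.Y2 _ (mul_mem a a')) ?_
        have c := zc (g * k * (g * k)) (by simpa only [map_mul] using h.Y2 _ (mul_mem a a')) g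
        have g1 : g⁻¹ = g := inv_eq_of_mul_eq_one_right b
        have k1 : k⁻¹ = k := inv_eq_of_mul_eq_one_right b'
        have e : g * (g * k * (g * k)) * g⁻¹ = (g * k * (g * k))⁻¹ := by
          simp only [mul_inv_rev, g1, k1]
          calc _ = (g * g) * (k * g * (k * g)) := by group
            _ = _ := by rw [b, one_mul]
        rw [c, mul_inv_cancel_right] at e
        exact mul_eq_one_iff_eq_inv.2 e⟩ }
  have mY : ∀ g, g ∈ Y ↔ ρ g ∈ Y₀ ∧ g * g = 1 := fun _ => Iff.rfl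
  have r1 : ρ d = 1 := (kr d).2 (mem_zpowers d)
  have cc : ∀ J : Subgroup G, d ∈ J → (J.map ρ).comap ρ = J := fun J hd =>
    comap_map_eq_self fun m hm => zpowers_le.2 hd ((kr m).1 hm)
  have yy : ∀ J : Subgroup G, Y ≤ J → Y₀ ≤ J.map ρ := fun J hJ y hy => by
    obtain ⟨g, rfl, e⟩ := lf y (h.Y2 y hy)
    exact mem_map_of_mem ρ (hJ ⟨hy, e⟩)
  have ix : (K₀.comap ρ).index = 77 := by rw [index_comap_of_surjective _ sj, hi]
  have dK : d ∈ K₀.comap ρ := by rw [mem_comap, r1]; exact one_mem _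
  refine ⟨Y, mY, lf, ⟨dK, fun y hy => h.YK hy.1, ?_, fun y hy => hy.2, fun k hk y hy => ⟨by simpa using h.nY _ hk _ hy.1, ?_⟩,
    fun y hy y' hy' n n' => ?_, fun J hJ hY hd hi => ?_, fun N hN hY hd hn => ?_, fun E hE e2 => ?_⟩, ?_⟩
  · rw [← h.cY]
    refine Nat.card_congr (Equiv.ofBijective (fun y : Y => (⟨ρ y, y.2.1⟩ : Y₀)) ⟨fun a b e => ?_, fun y => ?_⟩)
    · exact Subtype.ext (uq _ _ a.2.2 b.2.2 (congrArg Subtype.val e))
    · obtain ⟨g, e, g2⟩ := lf y (h.Y2 _ y.2)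
      exact ⟨⟨g, by rw [e]; exact y.2, g2⟩, Subtype.ext e⟩
  · rw [conj_mul, hy.2]; simp
  · obtain ⟨k₀, hk, e⟩ := h.tr _ hy.1 _ hy'.1 (fun r => n (z2 _ r hy.2)) (fun r => n' (z2 _ r hy'.2))
    obtain ⟨k, rfl⟩ := sj k₀
    exact ⟨k, hk, uq _ _ (by rw [conj_mul, hy.2]; simp) hy'.2 (by simpa using e)⟩
  · have := h.s1 _ (map_le_iff_le_comap.2 hJ) (yy J hY) (one_mem _)
      (by rwa [← cc J hd, relIndex_comap, map_comap_eq_self_of_surjective sj] at hi)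
    exact (comap_mono this).trans (cc J hd).le
  · refine (h.s2 _ (map_le_iff_le_comap.2 hN) (yy N hY) (one_mem _) ?_).imp
      (fun e => (comap_mono e).trans (cc N hd).le) fun e g hg g2 => ⟨e _ (mem_map_of_mem ρ hg) (by rw [← map_mul, g2, map_one]), g2⟩
    rintro k₀ hk _ ⟨n, m, rfl⟩
    obtain ⟨k, rfl⟩ := sj k₀
    exact ⟨_, hn k hk n m, by simp⟩
  · have := h.s3 _ (map_le_iff_le_comap.2 hE) (by rintro _ ⟨g, hg, rfl⟩; rw [← map_mul, e2 g hg, map_one])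
    have a : Nat.card E ≤ Nat.card (E.map ρ) := by
      have : Finite (E.map ρ) := Finite.of_surjective _ (ρ.subgroupMap_surjective E)
      exact Nat.card_le_card_of_injective (ρ.subgroupMap E) fun a b e =>
        Subtype.ext (uq _ _ (e2 _ a.2) (e2 _ b.2) (congrArg Subtype.val e))
    have b : E.map ρ ⊓ Y₀ = (E ⊓ Y).map ρ := le_antisymm
      (by rintro _ ⟨⟨g, hg, rfl⟩, y⟩; exact mem_map_of_mem ρ ⟨hg, y, e2 g hg⟩)
      (by rintro _ ⟨g, ⟨hg, y⟩, rfl⟩; exact ⟨mem_map_of_mem ρ hg, y.1⟩)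
    have c : Nat.card ((E ⊓ Y).map ρ) ≤ Nat.card ↥(E ⊓ Y) :=
      Nat.card_le_card_of_surjective _ (ρ.subgroupMap_surjective _)
    rw [b] at this
    omega
  · set K := K₀.comap ρ
    have key : ∀ (k : ℕ) (g₀ : G), g₀⁻¹ * d ^ k * g₀ ∈ K → g₀⁻¹ * d ^ k * g₀ = d ^ k := fun k g _ => by
      rw [zc (d ^ k) (by simp [r1]) g⁻¹]; simp
    have t := MonoidHom.transfer_eq_pow (Abelianization.of : K →* Abelianization K) d key
    have t1 : MonoidHom.transfer (Abelianization.of : K →* Abelianization K) d = 1 :=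
      Abelianization.commutator_subset_ker _ dG
    have m : d ^ K.index ∈ ⁅K, K⁆ := by
      rw [← map_subtype_commutator]
      exact ⟨⟨_, MonoidHom.transfer_eq_pow_aux d key⟩, by rw [← Abelianization.ker_of]; exact t.symm.trans t1, rfl⟩
    have e : d = (d ^ K.index) ^ 2 := by
      rw [ix, ← pow_mul, show 77 * 2 = 3 * 51 + 1 from rfl, pow_succ, pow_mul, d3', one_pow, one_mul]
    rw [e]; exact pow_mem m 2


theorem up3 {G : Type v} {H : Type w} [Group G] [Finite G] [Group H] {d : G} (ρ : G →* H) {K₀ Y₀ : Subgroup H}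
    (d3 : d * (d * d) = 1) (dc : ∀ g, g * d = d * g) (dG : d ∈ commutator G) (sj : Function.Surjective ρ)
    (kr : ∀ m, ρ m = 1 ↔ m ∈ zpowers d) (h : Hk 1 ⊤ K₀ Y₀) :
    ∃ K Y : Subgroup G, Hk d ⊤ K Y ∧ d ∈ ⁅K, K⁆ := by
  have hi : K₀.index = 77 := relIndex_top_right K₀ ▸ h.iK
  obtain ⟨Y, mY, lf, hx, c⟩ := up2 ρ d3 dc dG sj kr h.hx hi
  have r1 : ρ d = 1 := (kr d).2 (mem_zpowers d)
  have cc : ∀ J : Subgroup G, d ∈ J → (J.map ρ).comap ρ = J := fun J hd =>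
    comap_map_eq_self fun m hm => zpowers_le.2 hd ((kr m).1 hm)
  have ri : ∀ g, (K₀.comap ρ ⊓ cj g (K₀.comap ρ)).relIndex (K₀.comap ρ) = (K₀ ⊓ cj (ρ g) K₀).relIndex K₀ := fun g => by
    have : K₀.comap ρ ⊓ cj g (K₀.comap ρ) = (K₀ ⊓ cj (ρ g) K₀).comap ρ := by
      ext x; simp [mem_cj]
    rw [this, relIndex_comap, map_comap_eq_self_of_surjective sj]
  refine ⟨K₀.comap ρ, Y, ⟨hx, le_top, by rw [relIndex_top_right, index_comap_of_surjective _ sj, hi], fun x _ x2 => ?_,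
    ?_, ?_, fun J hJ _ => ?_, ?_⟩, c⟩
  · obtain ⟨g₀, -, e⟩ := h.oc (ρ x) trivial (by rw [← map_mul, x2, map_one])
    obtain ⟨g, rfl⟩ := sj g₀
    exact ⟨g, trivial, (mY _).2 ⟨by simpa using e, by rw [conj_mul, x2]; simp⟩⟩
  · obtain ⟨g₀, -, y₀, hy, n⟩ := h.nY
    obtain ⟨g, rfl⟩ := sj g₀
    obtain ⟨y, rfl, y2⟩ := lf y₀ (h.hx.Y2 _ hy)
    exact ⟨g, trivial, y, (mY _).2 ⟨hy, y2⟩, fun e => n (by simpa using ((mY _).1 e).1)⟩
  · obtain ⟨g₀, -, e, o⟩ := h.orb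
    obtain ⟨g0, rfl⟩ := sj g₀
    refine ⟨g0, trivial, (ri _).trans e, fun g _ => (o (ρ g) trivial).imp id (Or.imp ?_ (ri g).trans)⟩
    rintro ⟨k₀, hk, k₁, hk', e'⟩
    obtain ⟨k, rfl⟩ := sj k₀
    refine ⟨k, hk, (k * g0)⁻¹ * g, ?_, by group⟩
    rw [mem_comap, map_mul, e']
    simpa [mul_assoc] using hk'
  · have dJ : d ∈ J := hJ hx.dK
    have : K₀ ≤ J.map ρ := (map_comap_eq_self_of_surjective sj K₀).ge.trans (map_mono hJ)
    refine (h.mx _ this le_top).imp (fun e => ?_) fun e => ?_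
    · rw [← cc J dJ, e]
    · rw [← cc J dJ, e, comap_top]
  · obtain ⟨φ, su, ke⟩ := h.ph
    refine ⟨φ.comp (ρ.subgroupComap K₀), su.comp (ρ.subgroupComap_surjective_of_surjective K₀ sj), fun k => (ke _).trans ⟨?_, ?_⟩⟩
    · rintro ⟨y₀, hy, i, e⟩
      obtain ⟨y, rfl, y2⟩ := lf y₀ (h.hx.Y2 _ hy)
      have e' : ρ k = ρ y := (show ρ k = _ from e).trans (by simp)
      obtain ⟨j, hj⟩ := mem_powers_iff_mem_zpowers.2 ((kr (y⁻¹ * k)).1 (by simp [e']))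
      exact ⟨y, (mY _).2 ⟨hy, y2⟩, j, by rw [show d ^ j = _ from hj]; group⟩
    · rintro ⟨y, hy, i, e⟩
      exact ⟨ρ y, ((mY _).1 hy).1, 0, show ρ k = _ by simp [e, r1]⟩

theorem tp2 {G : Type v} {Γ : Type w} [Group G] [Group Γ] (f : G →* Γ) (hf : Function.Injective f) {d : G}
    {K Y : Subgroup G} (h : Hk d ⊤ K Y) : Hk (f d) f.range (K.map f) (Y.map f) := by
  have ri : ∀ g, (K.map f ⊓ cj (f g) (K.map f)).relIndex (K.map f) = (K ⊓ cj g K).relIndex K := fun g => by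
    have : K.map f ⊓ cj (f g) (K.map f) = (K ⊓ cj g K).map f := by
      rw [map_inf_eq _ _ _ hf]
      congr 1
      ext x
      simp only [mem_cj', mem_map]
      constructor
      · rintro ⟨_, ⟨y, hy, rfl⟩, rfl⟩
        exact ⟨_, ⟨y, hy, rfl⟩, by simp⟩
      · rintro ⟨_, ⟨y, hy, rfl⟩, rfl⟩
        exact ⟨_, ⟨y, hy, rfl⟩, by simp⟩
    rw [this, relIndex_map_map_of_injective _ _ hf]
  refine ⟨JL.tp f hf h.hx, map_le_range f K, ?_, ?_, ?_, ?_, fun J hJ hM => ?_, ?_⟩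
  · rw [f.range_eq_map, relIndex_map_map_of_injective _ _ hf, h.iK]
  · rintro _ ⟨x, rfl⟩ x2
    obtain ⟨g, -, e⟩ := h.oc x trivial (hf (by simpa using x2))
    exact ⟨f g, ⟨g, rfl⟩, _, e, by simp⟩
  · obtain ⟨g, -, y, hy, n⟩ := h.nY
    refine ⟨f g, ⟨g, rfl⟩, f y, mem_map_of_mem f hy, fun ⟨y', hy', e⟩ => n ?_⟩
    rwa [← show y' = g * y * g⁻¹ from hf (by simpa using e)]
  · obtain ⟨g0, -, e, o⟩ := h.orb
    refine ⟨f g0, ⟨g0, rfl⟩, (ri _).trans e, ?_⟩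
    rintro _ ⟨g, rfl⟩
    refine (o g trivial).imp (mem_map_of_mem f) (Or.imp ?_ (ri g).trans)
    rintro ⟨k, hk, k', hk', rfl⟩
    exact ⟨_, mem_map_of_mem f hk, _, mem_map_of_mem f hk', by simp⟩
  · have e : (J.comap f).map f = J := map_comap_eq_self hM
    refine (h.mx _ (map_le_iff_le_comap.1 hJ) le_top).imp (fun k => ?_) fun k => ?_
    · rw [← e, k]
    · rw [← e, k, f.range_eq_map]
  · obtain ⟨φ, su, ke⟩ := h.ph
    let e := K.equivMapOfInjective f hf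
    refine ⟨φ.comp e.symm.toMonoidHom, su.comp e.symm.surjective, fun k => ?_⟩
    obtain ⟨k, rfl⟩ := e.surjective k
    rw [MonoidHom.comp_apply, MulEquiv.coe_toMonoidHom, e.symm_apply_apply, ke]
    constructor
    · rintro ⟨y, hy, i, q⟩
      exact ⟨_, mem_map_of_mem f hy, i, show f k = _ by simp [q]⟩
    · rintro ⟨_, ⟨y, hy, rfl⟩, i, q⟩
      exact ⟨y, hy, i, hf ((show f k = _ from q).trans (by simp))⟩

theorem l2 : L2Stmt.{u} := by
  intro Γ _ _ d M ρ K₀ Y₀ d3 dM dc dG sj kr h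
  obtain ⟨K, Y, hx, c⟩ := up3 (d := (⟨d, dM⟩ : M)) ρ (Subtype.ext d3) (fun g => Subtype.ext (dc _ g.2))
    (by
      rw [← map_subtype_commutator] at dG
      obtain ⟨x, hx, rfl⟩ := dG
      exact hx) sj
    (fun m => (kr m).trans ⟨fun ⟨i, e⟩ => ⟨i, Subtype.ext e⟩, fun ⟨i, e⟩ => ⟨i, congrArg Subtype.val e⟩⟩) h
  have := tp2 M.subtype M.subtype_injective hx
  rw [range_subtype] at this
  refine ⟨_, _, this, ?_⟩
  rw [← Subgroup.map_commutator]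
  exact mem_map_of_mem M.subtype c

end Cfsg.Agent.H19.KL
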