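import Mathlib
import Cfsg.Agent.H19.Fast

/-!
Simple groups of order 10200960 (namespace H19).
* the searches `m23_c1`, `m23_c2`
-/

set_option linter.unusedSectionVars false

namespace H19

/-- All divisors. -/
def m23R : List ℕ := Sv.divs [(2, 7), (3, 2), (5, 1), (7, 1), (11, 1), (23, 1)]

/-- Small divisors. -/
def m23E : List ℕ := [3168, 3080, 3036, 2944, 2898, 2880, 2772, 2760, 2688, 2640, 2576, 2530, 2520, 2464, 2415, 2310, 2277, 2240, 2208, 2112,
  2070, 2024, 2016, 1980, 1932, 1920, 1848, 1840, 1771, 1760, 1680, 1656, 1610, 1584, 1540, 1518, 1472, 1449, 1440, 1408,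
  1386, 1380, 1344, 1320, 1288, 1265, 1260, 1232, 1155, 1152, 1120, 1104, 1056, 1035, 1012, 1008, 990, 966, 960, 924, 920,
  896, 880, 840, 828, 805, 792, 770, 759, 736, 720, 704, 693, 690, 672, 660, 644, 640, 630, 616, 576, 560, 552, 528, 506,
  504, 495, 483, 480, 462, 460, 448, 440, 420, 414, 396, 385, 384, 368, 360, 352, 345, 336, 330, 322, 320, 315, 308, 288,
  280, 276, 264, 253, 252, 240, 231, 230, 224, 220, 210, 207, 198, 192, 184, 180, 176, 168, 165, 161, 160, 154, 144, 140,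
  138, 132, 128, 126, 120, 115, 112, 110, 105, 99, 96, 92, 90, 88, 84, 80, 77, 72, 70, 69, 66, 64, 63, 60, 56, 55, 48, 46,
  45, 44, 42, 40, 36, 35, 33, 32, 30, 28, 24, 23, 22, 21, 20, 18, 16, 15, 14, 12, 11, 10, 9, 8, 7, 6, 5, 4, 3, 2]

theorem mem_m23R (d : ℕ) (h : d ∣ 10200960) : d ∈ m23R := Sv.mem_divs (by decide +kernel) h

theorem m23_c1 : Sv.chkT m23R m23E 10200960 23 (fun _ _ k => k == 1) (fun _ e k y l => k % 2 == 0 &&
    Sv.chkf 10200960 23 (22 / e) 4 false y l (m23R.filter (· % 46 == 0)) fun _ _ _ => false) = true := by decide +kernel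

theorem m23_c2 : Sv.chkT m23R (m23E.filter fun d => [0, 1, 11, 12, 22].contains (d % 23)) 10200960 11
    (fun _ _ k => k == 1 || k % 23 == 0) (fun _ e k y l => (e == 2 && k % 5 != 0 && y % 5 != 0) ||
      ([5, 7].any fun q => k % q == 0 && (y :: l).any fun s => decide ((Sv.bl (10 / e) y l).count s.natAbs ≤ 1) &&
        decide (s.natAbs < (q - 1) * 11)) || (k % 2 == 0 && e % 2 == 1 &&
      Sv.chkf 10200960 11 (10 / e) 4 true y l (m23R.filter fun c => c % 22 == 0 && c % 23 != 0) fun _ _ _ => false)) = true := by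
  decide +kernel

end H19
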