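import Mathlib
import Cfsg.Agent.H19.M23c
import Cfsg.Agent.H19.M23b
import Cfsg.Agent.H19.M22d

/-!
Simple groups of order 10200960 (namespace H19).
* `isoM23_of_card`
-/

set_option linter.unusedSectionVars false

namespace H19

open H05 Cfsg Classical Subgroup

theorem isoM23_of_card {G : Type*} [Group G] [Finite G] [IsSimpleGroup G] (hn : Nat.card G = 10200960) :
    Nonempty (G ≃* Spor.M23) := by
  have hG : ¬ IsMulCommutative G := not_comm_of_simple_card (by rw [hn]; norm_num)
  have p11 : Nat.Prime 11 := by norm_num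
  have p23 : Nat.Prime 23 := by norm_num
  have := Fact.mk p11
  have := Fact.mk p23
  have hD : ∀ χ : IrrCharacter G, χ ≠ irrOne G → charDegree (χ : G → ℂ) ∈ m23E := fun χ h =>
    deg_mem_of_covers hG hn mem_m23R (ok := fun _ => true) (by decide +kernel) h rfl
  have hs : m23E.Pairwise (· ≥ ·) := by decide +kernel
  have hR : ∀ t : G, Nat.card (centralizer ({t} : Set G)) ∈ m23R := fun t => mem_m23R _ (hn ▸ card_subgroup_dvd_card _)
  obtain ⟨r, e, k, X, Y, y, A, hA, e1, e2, e3, e4, h⟩ := exists_pb_types hG p23 hn (by norm_num) (by norm_num) mem_m23R hs hD m23_c1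
  obtain ⟨x, hx⟩ := exists_prime_orderOf_dvd_card' (G := G) 23 (by omega)
  obtain rfl : k = 1 := beq_iff_eq.1 (h.resolve_right fun h => by
    rw [Bool.and_eq_true, beq_iff_eq] at h
    obtain ⟨t, h1, ht, -⟩ := exists_dvd_cent Nat.prime_two hx (by rw [A.card_cent p23 (e4.trans hn.symm) hx]; omega)
    obtain ⟨_, _, h2, -⟩ := A.vals_inv2 p23 hG (by norm_num) hn (by norm_num) (by norm_num) (quad := false) (by simp) ht
      (List.mem_filter.2 ⟨hR t, by simpa using Nat.mod_eq_zero_of_dvd (mul_dvd_card_centralizer hx ht (by norm_num) h1)⟩)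
      (Sv.chkw_of_chkf h.2)
    simp at h2)
  obtain ⟨rfl, rfl⟩ : e = 11 ∧ r = 40320 := by have := Nat.le_of_dvd (by norm_num) e2; interval_cases e <;> omega
  obtain ⟨r, e, k, X', Y', y', B, hB, e1, e2, e3, e4, h⟩ := exists_pb_types hG p11 hn (by norm_num) (by norm_num) mem_m23R
    (hs.filter _) (fun χ h => List.mem_filter.2 ⟨hD χ h, by
      have := A.deg_mod p23 hn hA χ
      simp only [List.contains_eq_mem, List.mem_cons, List.not_mem_nil, or_false, decide_eq_true_eq] at this ⊢; omega⟩) m23_c2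
  obtain ⟨u, hu⟩ := exists_prime_orderOf_dvd_card' (G := G) 11 (by omega)
  have c11 := B.card_cent p11 (e4.trans hn.symm) hu
  obtain rfl : k = 1 := by
    simp only [Bool.or_eq_true, Bool.and_eq_true, beq_iff_eq, bne_iff_ne, List.any_eq_true, decide_eq_true_eq] at h
    rcases h with (h | h) | (⟨⟨rfl, h1⟩, h2⟩ | ⟨q, h1, h2, s, h3, h4, h5⟩) | ⟨⟨h1, h2⟩, h⟩
    · exact h
    · obtain ⟨z, -, h5, h6⟩ := exists_dvd_cent p23 hu (c11 ▸ (Nat.dvd_of_mod_eq_zero h).mul_left 11)
      rw [(A.cent' p23 hn h5.symm.dvd).2] at h6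
      omega
    · refine absurd (B.exc_lt p11 (e4.trans hn.symm) Nat.prime_five (by norm_num) (by omega) ?_) (by norm_num)
      rw [hn, fact_eq_of_dvd (a := 1) Nat.prime_five (by norm_num) (by norm_num),
        fact_eq_of_dvd (a := 0) Nat.prime_five (by omega) (by omega)]
    · have : q.Prime ∧ q ≠ 11 := by clear h2 h5; revert q; decide +kernel
      exact absurd (B.uniq_le p11 hG (by omega) (e4.trans hn.symm) this.1 this.2 (Nat.dvd_of_mod_eq_zero h2) h3 h4) (not_le.2 h5)
    · obtain ⟨t, h3, ht, -⟩ := exists_dvd_cent Nat.prime_two hu (by omega)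
      obtain ⟨_, _, h2, -⟩ := B.vals_inv2 p11 hG (by norm_num) hn (by norm_num) (by norm_num) (fun _ => Nat.odd_iff.2 h2) ht
        (List.mem_filter.2 ⟨hR t, by
          simpa [Nat.mod_eq_zero_of_dvd (mul_dvd_card_centralizer hu ht (by norm_num) h3), ← Nat.dvd_iff_mod_eq_zero] using
            p23.coprime_iff_not_dvd.1 (A.coprime_cent p23 hn (by rintro rfl; simp at ht) (by rw [ht]; norm_num))⟩)
        (Sv.chkw_of_chkf h)
      simp at h2
  obtain ⟨rfl, rfl⟩ : e = 5 ∧ r = 185472 := by have := Nat.le_of_dvd (by norm_num) e2; interval_cases e <;> omega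
  exact isoM23_of_sylow hn A.syl B.syl

end H19
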