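import Mathlib
import Cfsg.Agent.H19.SelfC
import Cfsg.Agent.H06.Degree

/-!
The McKay equality for a Sylow subgroup of prime order (namespace H19).
* `DOne.res` (the data for the normalizer), `DOne.card_not_dvd`, `DOne.card_not_dvd_eq`
-/

open H05 Cfsg Classical

namespace H19

namespace DOne

variable {p : ℕ} [hp : Fact p.Prime] {G P H : Type*} [Group G] [Group P] [Group H] (S : DOne p G P H)

/-- The same data for the normalizer. -/
def res : DOne p S.N P H where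
  jP := S.jP.codRestrict _ S.memP
  jH := S.jH.codRestrict _ S.memH
  a := S.a
  N := ⊤
  injP _ _ e := S.injP (congrArg Subtype.val e)
  injH _ _ e := S.injH (congrArg Subtype.val e)
  cardP := S.cardP
  cardH := S.cardH
  cardG h := S.cardG (h.trans S.N.card_subgroup_dvd_card)
  cj h y := Subtype.ext (S.cj h y)
  memP _ := trivial
  memH _ := trivial
  decomp n _ := let ⟨y, h, e⟩ := S.decomp n n.2; ⟨y, h, Subtype.ext e⟩
  ti _ _ _ _ := trivial

variable [Fintype G] [Fintype P] [Fintype H]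

theorem card_not_dvd {R : Finset (IrrCharacter S.K)} (h1 : ∀ θ, ∃ θ' ∈ R, S.Cj θ θ')
    (h2 : ∀ θ ∈ R, ∀ θ' ∈ R, S.Cj θ θ' → θ = θ') :
    Nat.card {χ : IrrCharacter G // ¬ p ∣ charDegree (χ : G → ℂ)} = ∑ θ ∈ R, (S.e θ + (p - 1) / S.e θ) := by
  rw [Nat.card_eq_fintype_card, Fintype.card_subtype, show (Finset.univ.filter fun χ : IrrCharacter G =>
    ¬ p ∣ charDegree (χ : G → ℂ)) = R.biUnion fun θ => Finset.univ.filter (· ∈ S.Blk θ) from Finset.ext fun χ => by
      simp only [Finset.mem_filter, Finset.mem_univ, true_and, S.not_dvd_deg_iff, Finset.mem_biUnion]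
      exact ⟨fun ⟨θ, h⟩ => let ⟨θ', h', e⟩ := h1 θ; ⟨θ', h', S.Blk_eq_of_cj e ▸ h⟩, fun ⟨θ, _, h⟩ => ⟨θ, h⟩⟩,
    Finset.card_biUnion (t := fun θ => Finset.univ.filter (· ∈ S.Blk θ)) fun θ h θ' h' e => Finset.disjoint_left.2 fun χ e1 e2 => e (h2 θ h θ' h'
      (S.cj_of_mem_Blk (Finset.mem_filter.1 e1).2 (Finset.mem_filter.1 e2).2))]
  refine Finset.sum_congr rfl fun θ _ => ?_
  obtain ⟨X, Y, δ, ε, D⟩ := S.exists_desc θ
  rw [show Finset.univ.filter (· ∈ S.Blk θ) = X ∪ Y from Finset.ext fun χ => by simp [D.mem],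
    Finset.card_union_of_disjoint D.disj, D.cardX, ← D.cardY, Nat.mul_div_cancel _ (S.e_pos θ)]

theorem card_not_dvd_eq : Nat.card {χ : IrrCharacter G // ¬ p ∣ charDegree (χ : G → ℂ)} = Nat.card (ConjClasses S.N) := by
  let s : Setoid (IrrCharacter S.K) := ⟨S.Cj, Cj.refl S, Cj.symm, Cj.trans⟩
  have h1 : ∀ θ, ∃ θ' ∈ Finset.univ.image fun θ => (Quotient.mk s θ).out, S.Cj θ θ' := fun θ =>
    ⟨_, Finset.mem_image_of_mem _ (Finset.mem_univ θ), (Quotient.mk_out (s := s) θ).symm⟩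
  have h2 : ∀ θ ∈ Finset.univ.image fun θ => (Quotient.mk s θ).out, ∀ θ' ∈ Finset.univ.image fun θ => (Quotient.mk s θ).out,
      S.Cj θ θ' → θ = θ' := by
    simp only [Finset.mem_image]
    rintro _ ⟨θ, -, rfl⟩ _ ⟨θ', -, rfl⟩ e
    rw [(Quotient.out_equiv_out (s := s)).1 e]
  have := Fintype.ofFinite S.N
  have : S.res.jP.range.Normal := Subgroup.normalizer_eq_top_iff.1 S.res.N_eq.symm
  have : IsMulCommutative S.res.jP.range := ⟨⟨by
    rintro ⟨_, a, rfl⟩ ⟨_, b, rfl⟩; exact Subtype.ext (by simp only [Subgroup.coe_mul, ← map_mul, S.commP a])⟩⟩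
  rw [S.card_not_dvd h1 h2, ← card_irr_eq_card_conjClasses]
  exact (S.res.card_not_dvd h1 h2).symm.trans (Nat.card_congr (Equiv.subtypeUnivEquiv fun χ h =>
    S.res.not_dvd_index_of_le (U := S.res.jP.range) (fun y => ⟨y, rfl⟩) (h.trans (H06.ito_charDegree_dvd_index χ.2 S.res.jP.range))))

end DOne

end H19
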