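import Cfsg.Agent.L.Jf0
import Cfsg.Agent.H14.P24

/-! Part M20 of S5572. -/

set_option autoImplicit false

namespace Cfsg.Agent.H19.S5M20

open Subgroup Cfsg H14

def tx : ℕ := nat_lit 0xbd10d4bd71b164c9860e1d4c750880
def ty : ℕ := nat_lit 0xbbd74ad9066c642285c92426a1b0e0

theorem m20 : _root_.L.Jf.M20Stmt := by
  have : Fact (Nat.Prime 2) := ⟨Nat.prime_two⟩
  have hx : S24.In ⊤ tx := in24 (by decide +kernel)
  have hy : S24.In ⊤ ty := in24 (by decide +kernel)
  refine ⟨S24.el tx, S24.el ty, hx.order (by norm_num) (by decide +kernel), orderOf_eq_prime_pow (p := 2) (n := 1) (fun h => ?_) ?_, ?_⟩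
  · rw [← hy.el_tp, ← S24.el_idv] at h
    have := congrArg S24.tb h
    rw [(hy.pow _).tb_el, S24.el_idv, S24.tb_one] at this
    exact absurd this (by decide +kernel)
  · rw [← hy.el_tp, ← S24.el_idv]; exact congrArg _ (by decide +kernel)
  · rw [mul_inv_eq_iff_eq_mul, ← hx.el_tp, ← hy.el_tm hx, ← (hx.pow 2).el_tm hy]; exact congrArg _ (by decide +kernel)

end Cfsg.Agent.H19.S5M20
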