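import Mathlib
import Cfsg.Agent.L.Jt0
import Cfsg.Agent.H19.SelfM

/-! Part M1 of the cluster S5563-S5565. -/

set_option autoImplicit false
open Cfsg BG Subgroup

namespace Cfsg.Agent.H19.TM1

theorem m1 : _root_.L.Jt.M1Stmt := by
  intro x hx R hR o
  have k : ∀ p : ℕ, p.Prime → (p = 5 ∨ p = 7 ∨ p = 11) → (Nat.card R).Coprime p := fun p hp h => by
    have : Fact p.Prime := ⟨hp⟩
    refine ((Nat.Prime.coprime_iff_not_dvd hp).2 fun d => ?_).symm
    obtain ⟨y, hy⟩ := exists_prime_orderOf_dvd_card' p d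
    have e := _root_.H19.selfC_M22 h (y : Spor.M22) (by rw [Subgroup.orderOf_coe, hy])
    have m : x ∈ centralizer ({(y : Spor.M22)} : Set Spor.M22) := mem_cent1.2 (mem_cent1.1 (hR y.2)).symm
    have := Subgroup.orderOf_dvd_natCard _ m
    rw [e, hx] at this
    rcases h with rfl | rfl | rfl <;> omega
  have d : Nat.card R ∣ 9 * (2 ^ 7 * 5 * 7 * 11) := by
    have := card_subgroup_dvd_card R
    rwa [H14.card_M22] at this
  exact Nat.Coprime.dvd_of_dvd_mul_right ((((Nat.coprime_two_right.2 o).pow_right 7).mul_right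
    (k 5 (by norm_num) (by simp))).mul_right (k 7 (by norm_num) (by simp)) |>.mul_right (k 11 (by norm_num) (by simp))) d

end Cfsg.Agent.H19.TM1
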