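import Mathlib
import Cfsg.Agent.H19.WD

/-! Part W of the S5568 cluster. -/

set_option autoImplicit false
open Cfsg BG Subgroup

namespace Cfsg.Agent.H19.WW

universe u

/-- the four-group on two commuting involutions -/
def V4 {G : Type u} [Group G] (s t : G) (ss : s * s = 1) (tt : t * t = 1) (ts : t * s = s * t) : Subgroup G where
  carrier := {1, s, t, s * t}
  one_mem' := by simp
  mul_mem' := by
    have a : ∀ x, s * (s * x) = x := fun x => by rw [← mul_assoc, ss, one_mul]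
    have c : ∀ x, t * (s * x) = s * (t * x) := fun x => by rw [← mul_assoc, ts, mul_assoc]
    intro x y hx hy
    rcases hx with h | h | h | h <;> rcases hy with k | k | k | k <;> rw [h, k] <;> simp [mul_assoc, a, c, ss, tt, ts]
  inv_mem' := by
    have s1 : s⁻¹ = s := inv_eq_of_mul_eq_one_right ss
    have t1 : t⁻¹ = t := inv_eq_of_mul_eq_one_right tt
    intro x hx
    rcases hx with h | h | h | h <;> rw [h] <;> simp [s1, t1, ts]

theorem w : H06.W.WStmt.{u} := by
  intro G _ _ A M B D z Ω τ σ c T X Pu Sc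
  classical
  have cm : ∀ x ∈ A, ∀ y ∈ A, x * y = y * x := fun x i y j => by
    refine (mul_eq_one_iff_eq_inv.1 (c.sq _ (mul_mem i j))).trans ?_
    rw [mul_inv_rev, ← mul_eq_one_iff_eq_inv.1 (c.sq _ i), ← mul_eq_one_iff_eq_inv.1 (c.sq _ j)]
  have DA : ∀ t ∈ D, t ∈ A := fun t h => (c.DA t h).1
  have tA : ∀ i j, τ i j ∈ A := fun i j => by
    by_cases e : i = j
    · rw [e, T.refl]; exact one_mem _
    · exact DA _ (T.mem i j e)
  have nz : ∀ t ∈ D, ¬ IsConj z t := fun t h => ((X.hD t (DA t h)).1 h).2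
  have n1 : ¬ IsConj z 1 := fun h => c.z1 (isConj_one_right.1 h.symm)
  have zt : ∀ i j k l, i ≠ j → i ≠ k → i ≠ l → j ≠ k → j ≠ l → k ≠ l → IsConj z (τ i j * τ k l) := fun i j k l a b d e f g => by
    by_contra n
    refine T.non i j k l a b d e f g ((X.hD _ (mul_mem (tA _ _) (tA _ _))).2 ⟨fun q => ?_, n⟩)
    rcases T.inj i j k l a (mul_right_cancel (q.trans (c.sq _ (tA k l)).symm)) with h | h
    exacts [b h.1, d h.1]
  have Z1 : ∀ v ∈ A, v ≠ 1 → v ∉ D → ∀ t ∈ D, C_[v] ⊓ C_[t] ≤ M := fun v hv v1 vD t ht g hg => by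
    obtain ⟨m, hm, rfl⟩ := c.trZ v hv v1 vD
    have g1 := mem_cent1.1 hg.1
    have g2 := mem_cent1.1 hg.2
    have : m⁻¹ * g * m ∈ M := X.ci _ (c.Dc _ (inv_mem hm) t ht) ⟨mem_cent1.2 (by
      calc _ = m⁻¹ * (g * (m * z * m⁻¹)) * m := by group
        _ = _ := by rw [g1]; group), mem_cent1.2 (by
      calc _ = m⁻¹ * (g * t) * m := by group
        _ = _ := by rw [g2]; group)⟩
    exact (mul_mem_cancel_left (inv_mem hm)).1 ((mul_mem_cancel_right hm).1 this)
  have fx : ∀ t ∈ A, ∀ y ∈ C_[t], t ∈ cj y A := fun t ht y hy => by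
    have := conj_mem_cj y ht
    rwa [mem_cent1.1 hy, mul_inv_cancel_right] at this
  have ab : ∀ y v, v ∈ cj y A → cj y A ≤ C_[v] := fun y v hv x hx => by
    obtain ⟨a, ha, rfl⟩ := mem_cj'.1 hv
    obtain ⟨b, hb, rfl⟩ := mem_cj'.1 hx
    rw [mem_cent1, conj_mul, conj_mul, cm b hb a ha]
  have fin : Finite Ω := Nat.finite_of_card_ne_zero (by rw [T.card]; omega)
  have nw : ∀ p q r s : Ω, ∃ k, p ≠ k ∧ q ≠ k ∧ r ≠ k ∧ s ≠ k := fun p q r s => by
    let _ := Fintype.ofFinite Ω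
    obtain ⟨k, -, h⟩ := Finset.exists_mem_notMem_of_card_lt_card (s := {p, q, r, s}) (t := Finset.univ)
      (lt_of_le_of_lt Finset.card_le_four (by rw [Finset.card_univ, ← Nat.card_eq_fintype_card, T.card]; omega))
    simp only [Finset.mem_insert, Finset.mem_singleton, not_or] at h
    exact ⟨k, Ne.symm h.1, Ne.symm h.2.1, Ne.symm h.2.2.1, Ne.symm h.2.2.2⟩
  have ls : ∀ y a b f g : G, b * b = 1 → y * a * y⁻¹ * b = f → y * g = g * y → a * g ∈ D → ¬ IsConj z (f * b * g) :=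
    fun y a b f g b2 e k h i => nz _ h (i.trans (isConj_iff.2 ⟨y⁻¹, by
      rw [← e, mul_assoc _ b b, b2, mul_one, inv_inv]
      calc _ = a * y⁻¹ * (g * y) := by group
        _ = _ := by rw [← k]; group⟩))
  have s1 : ∀ p q r, p ≠ q → p ≠ r → q ≠ r → C_[τ p r] ⊓ C_[τ p q] ≤ M := fun p q r pq pr qr => by
    obtain ⟨k, pk, qk, rk, -⟩ := nw p q r r
    obtain ⟨l, pl, ql, rl, kl⟩ := nw p q r k
    have st : τ p r * τ p q = τ r q := by rw [T.symm p r, T.mul]
    have sD := T.mem p r pr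
    have tD := T.mem p q pq
    have uD : τ p r * τ p q ∈ D := st ▸ T.mem r q qr.symm
    let F := V4 (τ p r) (τ p q) (c.sq _ (tA _ _)) (c.sq _ (tA _ _)) (cm _ (tA _ _) _ (tA _ _))
    have pu : ∀ x ∈ F, ¬ IsConj z x := by
      intro x hx
      rcases hx with h | h | h | h <;> rw [h]
      exacts [n1, nz _ sD, nz _ tD, nz _ uD]
    have FA : F ≤ A := by
      intro x hx
      rcases hx with h | h | h | h <;> rw [h]
      exacts [one_mem _, tA _ _, tA _ _, DA _ uD]
    have YF : C_[τ p r] ⊓ C_[τ p q] ≤ C_(F) := fun y hy => mem_cent.2 fun x hx => by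
      have a := mem_cent1.1 hy.1
      have b := mem_cent1.1 hy.2
      rcases hx with h | h | h | h <;> rw [h]
      exacts [by simp, a.symm, b.symm, by rw [mul_assoc, ← b, ← mul_assoc, ← a, mul_assoc]]
    have cF : Nat.card F = 4 := by
      have a := (c.DA _ sD).2
      have b := (c.DA _ tD).2
      have d := (c.DA _ uD).2
      have e : τ p r ≠ τ p q := fun e => d (by rw [e]; exact c.sq _ (tA _ _))
      show ({1, τ p r, τ p q, τ p r * τ p q} : Set G).ncard = 4
      rw [Set.ncard_insert_of_notMem (by simp [a.symm, b.symm, d.symm]), Set.ncard_insert_of_notMem (by simp [e, b]),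
        Set.ncard_pair (by simp [a])]
    have za := zt p q r k pq pr pk qr qk rk
    have zb := zt p q k l pq pk pl qk ql kl
    have bs : τ p q * τ k l * τ p r = τ q r * τ k l := by
      rw [mul_assoc, cm _ (tA k l) _ (tA p r), ← mul_assoc, T.symm p q, T.mul]
    have zs := bs ▸ zt q r k l qr qk ql rk rl kl
    have as : τ p q * τ r k * τ p r ∈ D := by
      rw [mul_assoc, cm _ (tA r k) _ (tA p r), T.mul, T.symm p q, T.mul]; exact T.mem _ _ qk
    have at' : τ p q * τ r k * τ p q ∈ D := by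
      rw [cm _ (tA p q) _ (tA r k), mul_assoc, c.sq _ (tA p q), mul_one]; exact T.mem _ _ rk
    have bA := mul_mem (tA p q) (tA k l)
    rw [X.hM]
    refine WD.di YF FA (fun x hx => ⟨mem_cent1.2 (cm _ hx _ (tA _ _)), mem_cent1.2 (cm _ hx _ (tA _ _))⟩) c.sq
      (fun y hy n => ?_) (fun y hy w hw i j => Sc _ tD y hy.2 w hw i (X.hM ▸ j)) (mul_mem (tA p q) (tA r k)) bA za zb
      (fun h => pu _ h za) (fun h => pu _ h zb) fun y hy h => ?_
    · refine (eq_of_le_of_card_ge (le_inf FA fun x hx => fx x (FA hx) y (cent_le_cent1 hx (YF hy))) ?_).ge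
      rw [cF]
      refine Pu _ fun x hx x1 => by_contra fun xD => n (X.un y ?_)
      exact (le_inf (ab y x hx.2) (ab y _ (fx _ (tA p q) y hy.2))).trans (Z1 x hx.1 x1 xD _ tD)
    · have b2 := c.sq _ bA
      rcases h with h | h | h | h
      · exact ls _ _ _ _ _ b2 h (mem_cent1.1 hy.1) as (by rwa [one_mul])
      · exact ls _ _ _ _ _ b2 h (mem_cent1.1 hy.1) as (by rwa [cm _ (tA p r) _ bA, mul_assoc, c.sq _ (tA p r), mul_one])
      · exact ls _ _ _ _ _ b2 h (mem_cent1.1 hy.1) as (by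
          rw [← mul_assoc, c.sq _ (tA p q), one_mul]; exact zt k l p r kl pk.symm rk.symm pl.symm rl.symm pr)
      · exact ls _ _ _ _ _ b2 h (mem_cent1.1 hy.2) at' (by
          rwa [mul_assoc, ← cm _ (tA p q) _ bA, mul_assoc, ← mul_assoc (τ p q) (τ p q), c.sq _ (tA p q), one_mul,
            cm _ (tA p r) _ bA])
  have s2 : ∀ s ∈ D, ∀ t ∈ D, s * t ∈ D → C_[s] ⊓ C_[t] ≤ M := fun s hs t ht st => by
    have ne : s ≠ t := fun e => (c.DA _ st).2 (by rw [e]; exact c.sq _ (DA t ht))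
    obtain ⟨i, j, ij, rfl⟩ := T.surj s hs
    obtain ⟨k, l, kl, rfl⟩ := T.surj t ht
    by_cases a : i = k
    · subst a; exact s1 i l j kl ij fun e => ne (by rw [e])
    by_cases b : i = l
    · subst b; rw [T.symm k i]; exact s1 i k j a ij fun e => ne (by rw [e, T.symm])
    by_cases d : j = k
    · subst d; rw [T.symm i j]; exact s1 j l i kl ij.symm (Ne.symm b)
    by_cases e : j = l
    · subst e; rw [T.symm i j, T.symm k j]; exact s1 j k i d ij.symm (Ne.symm a)
    exact absurd st (T.non i j k l ij a b d e kl)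
  intro t ht
  obtain ⟨p, q, pq, rfl⟩ := T.surj t ht
  obtain ⟨r, pr, qr, -⟩ := nw p q q q
  obtain ⟨k, pk, qk, rk, -⟩ := nw p q r r
  obtain ⟨l, pl, ql, rl, kl⟩ := nw p q r k
  have t2 := c.sq _ (tA p q)
  let F := V4 1 (τ p q) (one_mul 1) t2 (by simp)
  have mF : ∀ x, x ∈ F ↔ x = 1 ∨ x = τ p q := fun x => by
    show x ∈ ({1, 1, τ p q, 1 * τ p q} : Set G) ↔ _
    simp
  have pu : ∀ x ∈ F, ¬ IsConj z x := fun x hx => by
    rcases (mF x).1 hx with h | h <;> rw [h]
    exacts [n1, nz _ ht]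
  have za := zt p q r k pq pr pk qr qk rk
  have zb := zt p r k l pr pk pl rk rl kl
  have bA := mul_mem (tA p r) (tA k l)
  have at' : τ p q * τ r k * τ p q ∈ D := by
    rw [cm _ (tA p q) _ (tA r k), mul_assoc, t2, mul_one]; exact T.mem _ _ rk
  rw [X.hM]
  refine WD.di (F := F) (fun y hy => mem_cent.2 fun x hx => ?_) (fun x hx => ?_) (fun x hx => mem_cent1.2 (cm _ hx _ (tA _ _)))
    c.sq (fun y hy n v hv => ?_) (fun y hy w hw i j => Sc _ ht y hy w hw i (X.hM ▸ j)) (mul_mem (tA p q) (tA r k)) bA za zb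
    (fun h => pu _ h za) (fun h => pu _ h zb) fun y hy h => ?_
  · rcases (mF x).1 hx with h | h <;> rw [h]
    exacts [by simp, (mem_cent1.1 hy).symm]
  · rcases (mF x).1 hx with h | h <;> rw [h]
    exacts [one_mem _, tA _ _]
  · by_contra vF
    rw [mF, not_or] at vF
    have tc := fx _ (tA p q) y hy
    refine n (X.un y ?_)
    by_cases a : v ∈ D
    · by_cases b : v * τ p q ∈ D
      · exact (le_inf (ab y v hv.2) (ab y _ tc)).trans (s2 v a _ ht b)
      · exact (le_inf (ab y _ (mul_mem hv.2 tc)) (ab y _ tc)).trans (Z1 _ (mul_mem hv.1 (tA p q))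
          (fun e => vF.2 (mul_right_cancel (e.trans t2.symm))) b _ ht)
    · exact (le_inf (ab y v hv.2) (ab y _ tc)).trans (Z1 v hv.1 vF.1 a _ ht)
  · have b2 := c.sq _ bA
    rcases (mF _).1 h with h | h
    · refine ls _ _ _ _ _ b2 h (mem_cent1.1 hy) at' ?_
      rw [one_mul, mul_assoc, cm _ (tA k l) _ (tA p q), ← mul_assoc, T.symm p r, T.mul]
      exact zt r q k l qr.symm rk rl qk ql kl
    · exact ls _ _ _ _ _ b2 h (mem_cent1.1 hy) at' (by rwa [cm _ (tA p q) _ bA, mul_assoc, t2, mul_one])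

end Cfsg.Agent.H19.WW
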