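import Mathlib
import Cfsg.Agent.H06.W1

/-! Part Cy of the S5568 cluster. -/

set_option autoImplicit false
open Cfsg BG Subgroup

namespace Cfsg.Agent.H19.WY

universe u

theorem cy : H06.W.CyStmt.{u} := by
  intro Γ _ _ d M K Y ρ C d3 kr h KM cK y hy y1 g hg c
  have d3' : d ^ 3 = 1 := by rw [← d3, pow_three]
  have yM : y ∈ M := KM (h.YK hy)
  have y2 := h.Y2 y hy
  have r1 : ρ ⟨y, yM⟩ ≠ 1 := fun e => by
    obtain ⟨i, e⟩ := (kr _).1 e
    have e : d ^ i = y := e
    have : y ^ 3 = 1 := by rw [← e, ← zpow_natCast, ← zpow_mul, mul_comm, zpow_mul, zpow_natCast, d3', one_zpow]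
    rw [pow_three, y2, mul_one] at this
    exact y1 this
  have a := C (ρ ⟨y, yM⟩) (by rw [← map_mul]; exact (congrArg ρ (Subtype.ext y2)).trans (map_one ρ)) r1
  let X := M ⊓ C_[y]
  let f : X →* Spor.M22 := ρ.comp (inclusion inf_le_left)
  have a1 : Nat.card f.range ≤ 384 := by
    refine le_trans (card_le_of_le ?_) a
    rintro _ ⟨x, rfl⟩
    refine mem_cent1.2 ?_
    show ρ _ * _ = _ * ρ _
    rw [← map_mul, ← map_mul]
    exact congrArg ρ (Subtype.ext (mem_cent1.1 x.2.2))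
  have a2 : Nat.card f.ker ≤ 3 := by
    refine (Nat.card_le_card_of_injective (fun x : f.ker => (⟨x.1.1, (kr _).1 x.2⟩ : zpowers d))
      fun a b e => Subtype.ext (Subtype.ext (congrArg (fun t : zpowers d => (t : Γ)) e))).trans ?_
    rw [Nat.card_zpowers]
    exact Nat.le_of_dvd (by omega) (orderOf_dvd_of_pow_eq_one d3')
  have a3 := f.ker.card_mul_index
  rw [index_ker] at a3
  have a4 : Nat.card X ≤ 1152 := a3 ▸ Nat.mul_le_mul a2 a1
  let _ : MulAction K Γ := MulAction.compHom Γ ((MulAut.conj : Γ →* MulAut Γ).comp K.subtype)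
  have st : MulAction.stabilizer K y = (K ⊓ C_[y]).subgroupOf K := by
    ext k
    rw [MulAction.mem_stabilizer_iff, mem_subgroupOf, mem_inf, mem_cent1, and_iff_right k.2]
    exact mul_inv_eq_iff_eq_mul
  have b1 : (MulAction.stabilizer K y).index ≤ 15 := by
    rw [MulAction.index_stabilizer]
    have : MulAction.orbit K y ⊆ (Y : Set Γ) \ {1} := by
      rintro _ ⟨k, rfl⟩
      exact ⟨h.nY _ k.2 y hy, fun e => y1 (conj_eq_one_iff.1 e)⟩
    refine (Set.ncard_le_ncard this).trans ?_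
    rw [Set.ncard_sdiff_singleton_of_mem (one_mem Y), show (Y : Set Γ).ncard = 16 from h.cY]
  have b2 := (MulAction.stabilizer K y).card_mul_index
  rw [cK, st, Nat.card_congr (subgroupOfEquivOfLe inf_le_left).toEquiv, ← st] at b2
  have b3 : 1152 ≤ Nat.card ↥(K ⊓ C_[y]) := by nlinarith
  have e : K ⊓ C_[y] = X := eq_of_le_of_card_ge (inf_le_inf_right _ KM) (a4.trans b3)
  exact (e.ge ⟨hg, mem_cent1.2 c⟩).1

end Cfsg.Agent.H19.WY
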