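import Mathlib
import Cfsg.Agent.H08.WP
import Cfsg.Agent.H11.K89

/-! Part Pb of the S5569 cluster (with the hypothesis `[A, t] ≤ W`). -/

set_option autoImplicit false
open Cfsg BG Subgroup

namespace Cfsg.Agent.H19.YPb

universe u

theorem pb {G : Type u} [Group G] [Finite G] {A N B W : Subgroup G} {D : Set G} {z t g : G} {Ω : Type u}
    {τ : Ω → Ω → G} {σ : N →* Equiv.Perm Ω} (c : _root_.L.Fz.Cf A N B D z) (T : _root_.L.Fz.Tr N D τ σ) (tN : t ∈ N)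
    (t2 : t * t = 1) (cC : Nat.card ↥(A ⊓ C_[t]) = 128) (_WC : W ≤ A ⊓ C_[t]) (cW : Nat.card W = 64)
    (hW : ∀ a ∈ A, a * (t * a * t⁻¹) ∈ W) (gN : g ∈ N) (gA : g ∉ A) (g7 : g ^ 7 ∈ A) (gt : t⁻¹ * (g * t * g⁻¹) ∈ A) :
    ∃ w ∈ W, g * w * g⁻¹ ∉ W := by
  by_contra! k
  have : Fact (Nat.Prime 7) := ⟨by norm_num⟩
  have cm : ∀ x ∈ A, ∀ y ∈ A, x * y = y * x := fun x i y j => by
    refine (mul_eq_one_iff_eq_inv.1 (c.sq _ (mul_mem i j))).trans ?_
    rw [mul_inv_rev, ← mul_eq_one_iff_eq_inv.1 (c.sq _ i), ← mul_eq_one_iff_eq_inv.1 (c.sq _ j)]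
  have x7 : (g * g) ^ 7 = 1 := by rw [(Commute.refl g).mul_pow]; exact c.sq _ g7
  have x1 : g * g ≠ 1 := fun e => gA (by
    have : g ^ 7 = g := by rw [show 7 = 2 * 3 + 1 from rfl, pow_succ, pow_mul, sq, e, one_pow, one_mul]
    exact this ▸ g7)
  have xN := mul_mem gN gN
  have pu : Nat.card ↥(A ⊓ centralizer {g * g}) ≤ 4 := _root_.H08.WP.pu T _ fun v hv v1 => by
    by_contra vD
    obtain ⟨m, hm, rfl⟩ := c.trZ v hv.1 v1 vD
    have e := mem_cent1.1 hv.2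
    have i : m⁻¹ * (g * g) * m ∈ N ⊓ centralizer {z} := ⟨N.mul_mem (N.mul_mem (N.inv_mem hm) xN) hm, mem_cent1.2 (by
      calc _ = m⁻¹ * (g * g * (m * z * m⁻¹)) * m := by group
        _ = _ := by rw [← e]; group)⟩
    have o : orderOf (m⁻¹ * (g * g) * m) = 7 := orderOf_eq_prime
      (by rw [← inv_inv m, inv_inv m⁻¹, conj_pow, x7]; simp) fun q => x1 (by
        rw [← inv_inv m, inv_inv m⁻¹] at q; exact conj_eq_one_iff.1 q)
    have := (o ▸ Subgroup.orderOf_dvd_natCard _ i).trans c.cN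
    revert this; decide
  let f : A →* G := MonoidHom.mk' (fun a => a * (t * a * t⁻¹)) fun a b => by
    have := cm _ b.2 _ (c.nM t tN _ a.2)
    push_cast
    calc _ = a * ((b : G) * (t * a * t⁻¹)) * (t * b * t⁻¹) := by group
      _ = _ := by rw [this]; group
  have ke : f.ker = (A ⊓ C_[t]).subgroupOf A := by
    ext a
    rw [MonoidHom.mem_ker, mem_subgroupOf, mem_inf, and_iff_right a.2, mem_cent1]
    show (a : G) * (t * a * t⁻¹) = 1 ↔ _
    rw [mul_eq_one_iff_inv_eq, inv_eq_of_mul_eq_one_right (c.sq _ a.2), eq_mul_inv_iff_mul_eq]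
  have cU : Nat.card f.range = 16 := by
    have := f.ker.card_mul_index
    rw [index_ker, ke, Nat.card_congr (subgroupOfEquivOfLe inf_le_left).toEquiv, cC, c.cA] at this
    omega
  have gU : ∀ a ∈ f.range, g * a * g⁻¹ ∈ f.range := by
    rintro _ ⟨a, rfl⟩
    have a' := c.nM g gN _ a.2
    refine ⟨⟨_, a'⟩, ?_⟩
    show g * a * g⁻¹ * (t * (g * a * g⁻¹) * t⁻¹) = g * (a * (t * a * t⁻¹)) * g⁻¹
    have := cm _ gt _ a'
    calc _ = g * a * g⁻¹ * (t * ((g * a * g⁻¹) * (t⁻¹ * (g * t * g⁻¹))) * (g * t * g⁻¹)⁻¹) := by group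
      _ = _ := by rw [← this]; group
  have two : ∀ X : Subgroup G, (∀ a ∈ X, g * a * g⁻¹ ∈ X) → ∀ a ∈ X, g * g * a * (g * g)⁻¹ ∈ X := fun X h a ha => by
    rw [show g * g * a * (g * g)⁻¹ = g * (g * a * g⁻¹) * g⁻¹ by group]; exact h _ (h _ ha)
  have m1 := _root_.H11.K89.md x7 (two _ gU)
  have m2 := _root_.H11.K89.md x7 (two _ k)
  have l1 : Nat.card ↥(f.range ⊓ centralizer {g * g}) ≤ Nat.card ↥(W ⊓ centralizer {g * g}) :=
    card_le_of_le (inf_le_inf_right _ (by rintro _ ⟨a, rfl⟩; exact hW a a.2))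
  have l2 : Nat.card ↥(W ⊓ centralizer {g * g}) ≤ 4 := (card_le_of_le (inf_le_inf_right _ (_WC.trans inf_le_left))).trans pu
  rw [cU] at m1
  rw [cW] at m2
  unfold Nat.ModEq at m1 m2
  have := t2
  omega

end Cfsg.Agent.H19.YPb
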