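import Cfsg.Agent.H23.Y1
import Cfsg.Agent.H19.YPb

/-! Part Pb2 of the S5569 cluster. -/

set_option autoImplicit false

namespace Cfsg.Agent.H19.YP2

universe u

theorem pb2 : H23.Y.Pb2Stmt.{u} := by
  intro G _ _ A N B W D z t g Ω τ σ
  intros
  apply YPb.pb (t := t) <;> assumption

end Cfsg.Agent.H19.YP2
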