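import Mathlib
import Cfsg.Agent.H23.Y0
import Cfsg.Agent.H26.JE
import Cfsg.Agent.H28.YC

/-! Part Pa of the S5569 cluster, from the key fact on `[Y, v₀]`. -/

set_option autoImplicit false
open Cfsg BG Subgroup H01.XS Cfsg.Agent.H06.J Cfsg.Agent.H23.K

namespace Cfsg.Agent.H19.YPa

universe u

def Key : Prop := All.{u} fun {_ _ _ _ _ _ _ _ _ _ _ _ _ _ _ T _ _ β _} _ _ Y B _ _ =>
  (∀ y ∈ Y, y ≠ 1 → {v | T y v = v}.ncard = 256) → ∀ y ∈ Y, y ≠ 1 → ∀ v0, T y v0 = v0 → v0 ∉ B →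
  ∀ b ∈ B, β v0 b = 0 → ∃ y1 ∈ Y, ∃ v, b = (v0 + T y1 v0) + (v + T y v)

theorem pa (key : Key.{u}) : H23.Y.PaStmt.{u} := by
  intro G _ _ z Q V _ _ _ Γ _ _ f π ν T d M β q s K Y B A δ x c2 g256 t tz t2 ty tQ tA
  have m := s.md
  have l := m.lx
  have ml := _root_.H26.JE.mul s
  have qf := s.gm.toQF
  have cm : ∀ x' ∈ A, ∀ y ∈ A, x' * y = y * x' := fun a i y j => by
    refine (mul_eq_one_iff_eq_inv.1 (x.A2 _ (mul_mem i j))).trans ?_
    rw [mul_inv_rev, ← mul_eq_one_iff_eq_inv.1 (x.A2 _ i), ← mul_eq_one_iff_eq_inv.1 (x.A2 _ j)]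
  have BA : ∀ w ∈ m.pull B, w ∈ A := fun w h => (c2.e3.ge h).1
  have y1 : π t ≠ 1 := fun e => tQ ((s.ker t tz).1 e)
  have yy := x.hk.hx.Y2 _ ty
  obtain ⟨c, cA, cδ, ce⟩ := c2.YA _ ty
  have cz := x.Az cA
  have cc := x.A2 c cA
  obtain ⟨p, rfl⟩ : ∃ p, t = p * c := ⟨t * c, by rw [mul_assoc, cc, mul_one]⟩
  have pz : p ∈ C_[z] := (mul_mem_cancel_right cz).1 tz
  have pQ : p ∈ Q := (s.ker p pz).1 (by have := ml p pz c cz; rw [ce] at this; simpa using this)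
  have vB : ν p ∉ B := fun h => tA (mul_mem (BA p ⟨pQ, h⟩) cA)
  have c1 : c⁻¹ = c := inv_eq_of_mul_eq_one_right cc
  have fv : T (π c) (ν p) = ν p := by
    rw [s.act c cz p pQ, ← m.inv pQ]; congr 1
    rw [c1]; exact eq_inv_of_mul_eq_one_right (by rw [← t2]; group)
  have cp : c * p = p * c := mul_inv_eq_iff_eq_mul.1 (c2.cz c cz cδ p pQ fv)
  rw [← ce] at y1 ty yy
  have ct : ∀ a ∈ A, a ∈ C_[p * c] ↔ a * p = p * a := fun a h => by
    rw [mem_cent1, ← mul_assoc, mul_assoc p c, ← cm a h c cA, ← mul_assoc, mul_left_inj]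
  have iso : ∀ u ∈ B, ∀ v ∈ B, β u v = 0 := fun u hu v hv => by
    have := qf.pol u v
    rw [x.pj.qB _ (add_mem hu hv), x.pj.qB _ hu, x.pj.qB _ hv] at this
    simpa using this.symm
  obtain ⟨b0, hb0, n0⟩ : ∃ b ∈ B, β (ν p) b ≠ 0 := by
    by_contra! h
    exact vB (qf.perp iso (by rw [x.pj.cB]; omega) h)
  have cW : Nat.card ↥(m.pull B ⊓ C_[p * c]) = 64 := by
    have e : m.pull B ⊓ C_[p * c] = m.pull (B ⊓ (β (ν p)).ker) := Subgroup.ext fun w =>
      ⟨fun h => ⟨h.1.1, h.1.2, (s.b p pQ w h.1.1).2 ((ct w (BA w h.1)).1 h.2).symm⟩,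
        fun h => ⟨⟨h.1, h.2.1⟩, (ct w (BA w ⟨h.1, h.2.1⟩)).2 ((s.b p pQ w h.1).1 h.2.2).eq.symm⟩⟩
    have a1 := AddSubgroup.card_mul_index (((β (ν p)).ker).addSubgroupOf B)
    have a2 : (((β (ν p)).ker).addSubgroupOf B).index = 2 := by
      refine AddSubgroup.index_eq_two_iff.2 ⟨⟨b0, hb0⟩, fun b => ?_⟩
      simp only [AddSubgroup.mem_addSubgroupOf, AddMonoidHom.mem_ker, AddSubgroup.coe_add, map_add]
      revert n0; generalize β (ν p) b0 = r, β (ν p) b = r'; revert r r'; decide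
    rw [a2, x.pj.cB, ← AddSubgroup.inf_addSubgroupOf_right, Nat.card_congr (AddSubgroup.addSubgroupOfEquivOfLe inf_le_right).toEquiv,
      inf_comm] at a1
    rw [e, m.card_pull]; omega
  have h4 : ∀ a ∈ A ⊓ C_[p * c], a ∉ m.pull B → π a = π c := fun a h n => by
    by_contra k
    have az := x.Az h.1
    refine vB (x.pi.two _ (x.AY a h.1) _ ty (fun e => n (c2.e3.le ⟨h.1, (s.ker a az).1 e⟩)) y1 k _ ?_ fv)
    rw [s.act a az p pQ, (ct a h.1).1 h.2, mul_inv_cancel_right]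
  have cB : c ∉ m.pull B := fun h => y1 ((s.ker c cz).2 h.1)
  have QN : ∀ r ∈ Q, r ∈ N_(A) := fun r h => (c2.mN r (l.le h)).2 fun v hv => by
    rw [(s.ker r (l.le h)).2 h, s.gm.one]; exact hv
  refine ⟨?_, cW, fun w hw => ?_, fun a h n => ?_, c, cA, cδ, cB, fun c' hc' => ?_⟩
  · have cC : c ∈ A ⊓ C_[p * c] := ⟨cA, (ct c cA).2 cp⟩
    have le : m.pull B ⊓ C_[p * c] ≤ A ⊓ C_[p * c] := fun w h => ⟨BA w h.1, h.2⟩
    have i2 : (m.pull B ⊓ C_[p * c]).relIndex (A ⊓ C_[p * c]) = 2 := by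
      refine index_eq_two_iff.2 ⟨⟨c, cC⟩, fun a => ?_⟩
      simp only [mem_subgroupOf, mem_inf, coe_mul]
      by_cases h : (a : G) ∈ m.pull B
      · exact .inr ⟨⟨h, a.2.2⟩, fun k => cB ((mul_mem_cancel_left h).1 k.1)⟩
      · refine .inl ⟨⟨c2.e3.le ⟨mul_mem a.2.1 cA, (s.ker _ (mul_mem (x.Az a.2.1) cz)).1 ?_⟩, mul_mem a.2.2 cC.2⟩, fun k => h k.1⟩
        rw [ml _ (x.Az a.2.1) _ cz, h4 a a.2 h, yy]
    rw [← card_mul_relIndex le, i2, cW]
  · obtain ⟨y', hy', v, e⟩ := key s K Y B A δ x g256 _ ty y1 _ fv vB _ hw.1.2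
      ((s.b p pQ w hw.1.1).2 ((ct w (BA w hw.1)).1 hw.2).symm)
    obtain ⟨a, aA, -, rfl⟩ := c2.YA _ hy'
    obtain ⟨r, rQ, rfl⟩ := m.sur v
    obtain ⟨r2, r2Q, rfl⟩ := m.sur b0
    have az := x.Az aA
    have i1 := l.cE az pQ
    have i2 := l.cE cz (inv_mem rQ)
    have i3 := l.cE cz hw.1.1
    have wc : c * w * c⁻¹ = w := by rw [cm c cA w (BA w hw.1), mul_inv_cancel_right]
    have e1 : r * a * (p * c) * (r * a)⁻¹ = r * (a * p * a⁻¹) * (c * r⁻¹ * c⁻¹) * c := by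
      calc _ = r * a * p * (c * a⁻¹) * r⁻¹ := by group
        _ = _ := by rw [cm c cA _ (inv_mem aA)]; group
    have e2 : p * c * w = p * w * c := by rw [mul_assoc, cm c cA w (BA w hw.1), mul_assoc]
    have e3 : ν (r * (a * p * a⁻¹) * (c * r⁻¹ * c⁻¹)) = ν (p * w) := by
      rw [m.mul _ (mul_mem rQ i1) _ i2, m.mul _ rQ _ i1, ← s.act a az p pQ, ← s.act c cz _ (inv_mem rQ), m.inv rQ,
        m.mul _ pQ _ hw.1.1, e, ← add_assoc, ← add_assoc, ← add_assoc, m.two, zero_add, add_comm (ν r)]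
    have rN := mul_mem (QN r rQ) (le_norm A aA)
    rcases m.eq (mul_mem (mul_mem rQ i1) i2) (mul_mem pQ hw.1.1) e3 with h | h
    · exact ⟨_, rN, by rw [e1, h, e2]⟩
    · refine ⟨r2 * (r * a), mul_mem (QN r2 r2Q) rN, ?_⟩
      have r2A := BA r2 ⟨r2Q, hb0⟩
      have k := (l.cm r2Q pQ).resolve_left fun k => n0 ((s.b p pQ r2 r2Q).2 k.symm)
      have zr := mem_cent1.1 (l.le r2Q)
      calc _ = r2 * (r * a * (p * c) * (r * a)⁻¹) * r2⁻¹ := by group
        _ = (r2 * z) * p * (w * c) * r2⁻¹ := by rw [e1, h]; group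
        _ = z * (r2 * p) * (w * c * r2⁻¹) := by rw [zr]; group
        _ = (z * z) * p * (r2 * (w * c)) * r2⁻¹ := by rw [k]; group
        _ = _ := by rw [l.zz, cm r2 r2A _ (mul_mem (BA w hw.1) cA), e2]; group
  · refine (s.ker _ (mul_mem tz (x.Az h.1))).1 ?_
    rw [ml _ tz _ (x.Az h.1), h4 a h n, ← ce, yy]
  · have hz : ∀ r ∈ Q, r * c' * r⁻¹ * c'⁻¹ = r * c * r⁻¹ * c⁻¹ := fun r h => by
      rcases hc' with rfl | rfl
      · rfl
      · calc _ = r * c * (z * r⁻¹) * z⁻¹ * c⁻¹ := by group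
          _ = _ := by rw [← mem_cent1.1 (l.le (inv_mem h))]; group
    have c'A : c' ∈ A := by
      rcases hc' with rfl | rfl
      exacts [cA, mul_mem cA (BA z ⟨l.aes.mem, m.zz ▸ zero_mem _⟩)]
    have c't : c' * p = p * c' := by
      rcases hc' with rfl | rfl
      exacts [cp, by rw [mul_assoc, ← mem_cent1.1 pz, ← mul_assoc, cp, mul_assoc]]
    have nu : ∀ r ∈ Q, ν (r * (c * r⁻¹ * c⁻¹)) = ν r + T (π c) (ν r) := fun r h => by
      rw [m.mul _ h _ (l.cE cz (inv_mem h)), ← s.act c cz _ (inv_mem h), m.inv h]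
    let _ : MulAction Q G := MulAction.compHom G ((MulAut.conj : G →* MulAut G).comp Q.subtype)
    have sub : MulAction.orbit Q c' ⊆ {x | p * c * x = x * (p * c) ∧ ∃ r ∈ Q, x = r * c' * r⁻¹} := by
      rintro _ ⟨r, rfl⟩
      refine ⟨?_, r, r.2, rfl⟩
      have uQ : (r : G) * (c * (r : G)⁻¹ * c⁻¹) ∈ Q := mul_mem r.2 (l.cE cz (inv_mem r.2))
      have uA := BA _ ⟨uQ, by rw [nu _ r.2]; exact x.pj.cm _ ty _⟩
      have up : Commute p _ := (s.b p pQ _ uQ).1 (by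
        rw [nu _ r.2, map_add, ← qf.inv (s.gm.qT (π c)) (ν p) (ν r), fv]; exact CharTwo.add_self_eq_zero _)
      have e : (r : G) * c' * (r : G)⁻¹ = r * (c * (r : G)⁻¹ * c⁻¹) * c' := by
        rw [← mul_inv_eq_iff_eq_mul, hz _ r.2]; group
      show p * c * (r * c' * (r : G)⁻¹) = r * c' * (r : G)⁻¹ * (p * c)
      rw [e]
      exact (mem_cent1.1 (mul_mem ((ct _ uA).2 up.eq.symm) ((ct _ c'A).2 c't))).symm
    refine le_trans ?_ (Set.ncard_le_ncard sub)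
    rw [← MulAction.index_stabilizer]
    have b2 := (MulAction.stabilizer Q c').card_mul_index
    let U : AddSubgroup V := (T (π c)).eqLocus (AddMonoidHom.id V)
    have cU : Nat.card U = 256 := g256 _ ty y1
    have b3 : Nat.card (MulAction.stabilizer Q c') ≤ 512 := by
      refine (Nat.card_le_card_of_injective (fun r : MulAction.stabilizer Q c' => (⟨r.1.1, r.1.2, ?_⟩ : m.pull U))
        fun a b e => Subtype.ext (Subtype.ext (congrArg (fun t : m.pull U => (t : G)) e))).trans (by rw [m.card_pull, cU])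
      have e : (r.1 : G) * c' * (r.1 : G)⁻¹ = c' := r.2
      have e2 := hz _ r.1.2
      rw [e, mul_inv_cancel] at e2
      have e3 := nu _ r.1.2
      rw [show (r.1 : G) * (c * (r.1 : G)⁻¹ * c⁻¹) = 1 by rw [e2]; group, m.one] at e3
      exact add_left_cancel (e3.symm.trans (m.two _).symm)
    rw [s.card] at b2
    nlinarith

theorem key : Key.{u} := by
  intro G _ _ z Q V _ _ _ Γ _ _ f π ν T d M β q s K Y B A δ x g256 y hy y1 u fu uB b hb b0
  have qf := s.gm.toQF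
  obtain ⟨y2, hy2, n⟩ := _root_.H28.YC.cx s.gm x.hk.hx x.hk.KM x.pj x.pi g256 hy y1 fu uB
  have cW := _root_.H28.YC.cW s.gm (g256 y hy y1)
  have two := s.md.two
  have iso : ∀ u ∈ B, ∀ v ∈ B, β u v = 0 := fun u hu v hv => by
    have := qf.pol u v
    rw [x.pj.qB _ (add_mem hu hv), x.pj.qB _ hu, x.pj.qB _ hv] at this
    simpa using this.symm
  obtain ⟨b1, hb1, n1⟩ : ∃ b ∈ B, β u b ≠ 0 := by
    by_contra! h
    exact uB (qf.perp iso (by rw [x.pj.cB]; omega) h)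
  have a1 := AddSubgroup.card_mul_index (((β u).ker).addSubgroupOf B)
  have a2 : (((β u).ker).addSubgroupOf B).index = 2 := by
    refine AddSubgroup.index_eq_two_iff.2 ⟨⟨b1, hb1⟩, fun b => ?_⟩
    simp only [AddSubgroup.mem_addSubgroupOf, AddMonoidHom.mem_ker, AddSubgroup.coe_add, map_add]
    revert n1; generalize β u b1 = r, β u b = r'; revert r r'; decide
  rw [a2, x.pj.cB, ← AddSubgroup.inf_addSubgroupOf_right,
    Nat.card_congr (AddSubgroup.addSubgroupOfEquivOfLe inf_le_right).toEquiv] at a1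
  have le : (AddMonoidHom.id V + T y).range ≤ (β u).ker ⊓ B := by
    rintro _ ⟨v, rfl⟩
    refine ⟨?_, x.pj.cm y hy v⟩
    show β u (v + T y v) = 0
    rw [map_add, ← qf.inv (s.gm.qT y) u v, fu]; exact CharTwo.add_self_eq_zero _
  have a3 := AddSubgroup.card_mul_index ((AddMonoidHom.id V + T y).range.addSubgroupOf ((β u).ker ⊓ B))
  rw [Nat.card_congr (AddSubgroup.addSubgroupOfEquivOfLe le).toEquiv, cW] at a3
  have hB := x.pj.cm y2 hy2 u
  have h0 : β u (u + T y2 u) = 0 := by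
    have := qf.pol u (T y2 u)
    rw [x.pj.qB _ hB, s.gm.qT, CharTwo.add_self_eq_zero, zero_add] at this
    rw [map_add, qf.alt, zero_add, ← this]
  by_cases k : b ∈ (AddMonoidHom.id V + T y).range
  · obtain ⟨v, rfl⟩ := k
    exact ⟨1, one_mem _, v, by rw [s.gm.one, two, zero_add]; rfl⟩
  · obtain ⟨v, e⟩ := (AddSubgroup.add_mem_iff_of_index_two (H := (AddMonoidHom.id V + T y).range.addSubgroupOf ((β u).ker ⊓ B))
      (by omega) (a := ⟨_, h0, hB⟩) (b := ⟨b, b0, hb⟩)).2 (iff_of_false n k)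
    exact ⟨y2, hy2, v, by rw [show v + T y v = u + T y2 u + b from e, ← add_assoc, two, zero_add]⟩

theorem pa' : H23.Y.PaStmt.{u} := pa key

end Cfsg.Agent.H19.YPa
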